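import Mathlib

/-!
Isometries of an anisotropic quadratic map `q : V → E` between elementary abelian 2-groups
(written multiplicatively).

If `A` is an elementary abelian 2-group of isometries acting faithfully on a group `K` of isometries of
odd order, and a group `N` normalising `A` and `K` is compatible with `q` and transitive on `E ∖ {1}`,
then `|A| ≤ 2`: the involution blocks belonging to the hyperplanes of `A` have independent images in
`E`, and these images are permuted by `N`.
-/

set_option autoImplicit false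

namespace Cfsg.Agent.Lib.LocalChar.InvolOneClass

open Subgroup

variable {V E : Type*} [CommGroup V] [CommGroup E]

theorem inv_eq_self' {M : Type*} [Group M] (h : ∀ x : M, x * x = 1) (x : M) : x⁻¹ = x :=
  (eq_inv_of_mul_eq_one_left (h x)).symm

/-- The polar form of `q`. -/
def polar (q : V → E) (u v : V) : E := q (u * v) * (q u * q v)

theorem polar_comm (q : V → E) (u v : V) : polar q u v = polar q v u := by
  rw [polar, polar, mul_comm u v, mul_comm (q u) (q v)]

/-- `v ↦ γ(v) v` -/
def diffHom (γ : MulAut V) : V →* V where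
  toFun v := γ v * v
  map_one' := by simp
  map_mul' a b := by simp [mul_mul_mul_comm]

theorem diffHom_apply (γ : MulAut V) (v : V) : diffHom γ v = γ v * v := rfl

theorem diffHom_eq_one_iff (hV : ∀ v : V, v * v = 1) (γ : MulAut V) (v : V) :
    diffHom γ v = 1 ↔ γ v = v := by
  rw [diffHom_apply]
  constructor
  · intro h
    rw [eq_inv_of_mul_eq_one_left h, inv_eq_self' hV]
  · intro h
    rw [h, hV]

/-- The subgroup generated by all `k(v) v`, `k ∈ S`. -/
def moved (S : Subgroup (MulAut V × MulAut E)) : Subgroup V := ⨆ k : S, (diffHom k.1.1).range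

theorem diff_mem_moved {S : Subgroup (MulAut V × MulAut E)} {k : MulAut V × MulAut E} (hk : k ∈ S)
    (v : V) : k.1 v * v ∈ moved S :=
  le_iSup (fun k : S => (diffHom k.1.1).range) ⟨k, hk⟩ ⟨v, rfl⟩

variable [Finite V] [Finite E]

/-- An odd order group of automorphisms of an elementary abelian 2-group has no fixed points among the
moved elements. -/
theorem eq_one_of_moved_of_fixed (hV : ∀ v : V, v * v = 1) {S : Subgroup (MulAut V × MulAut E)}
    (hS : Odd (Nat.card S)) {v : V} (hm : v ∈ moved S) (hf : ∀ k ∈ S, k.1 v = v) : v = 1 := by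
  classical
  have : Finite (MulAut V) := Finite.of_injective (fun f : MulAut V => (f : V → V)) DFunLike.coe_injective
  have : Finite (MulAut E) := Finite.of_injective (fun f : MulAut E => (f : E → E)) DFunLike.coe_injective
  have := Fintype.ofFinite S
  let τ : V →* V := ∏ k : S, (k.1.1).toMonoidHom
  have hτ : ∀ w, τ w = ∏ k : S, k.1.1 w := fun w => MonoidHom.finsetProd_apply _ _ _
  have hker : moved S ≤ τ.ker := by
    refine iSup_le fun k => ?_
    rintro _ ⟨w, rfl⟩
    have h1 : τ (k.1.1 w) = τ w := by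
      rw [hτ, hτ]
      exact Fintype.prod_equiv (Equiv.mulRight k) _ _ fun a => by simp [MulAut.mul_apply]
    rw [MonoidHom.mem_ker, diffHom_apply, map_mul, h1, hV]
  have h1 : τ v = v := by
    rw [hτ, Finset.prod_congr rfl fun k _ => hf k.1 k.2, Finset.prod_const, Finset.card_univ,
      ← Nat.card_eq_fintype_card]
    obtain ⟨m, hm'⟩ := hS
    rw [hm', pow_succ, pow_mul, sq, hV, one_pow, one_mul]
  rw [← h1]
  exact MonoidHom.mem_ker.mp (hker hm)

section

variable (q : V → E) (hV : ∀ v : V, v * v = 1) (hE : ∀ x : E, x * x = 1)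
  (hb : ∀ u v w : V, polar q (u * v) w = polar q u w * polar q v w)
  (hq : ∀ v, q v = 1 → v = 1)
  (A K : Subgroup (MulAut V × MulAut E))
  (hA : ∀ a ∈ A, a * a = 1) (hAE : ∀ a ∈ A, a.2 = 1) (hKE : ∀ k ∈ K, k.2 = 1)
  (hA' : ∀ a ∈ A, ∀ v, q (a.1 v) = q v) (hK' : ∀ k ∈ K, ∀ v, q (k.1 v) = q v)

omit [Finite V] [Finite E] in
include hb in
theorem polar_mul_right (u v w : V) : polar q u (v * w) = polar q u v * polar q u w := by
  rw [polar_comm, hb, polar_comm q v, polar_comm q w]

omit [Finite V] [Finite E] in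
include hb in
theorem polar_one_left (v : V) : polar q 1 v = 1 := by
  have h := hb 1 1 v
  rw [one_mul] at h
  exact left_eq_mul.mp h

omit [Finite V] [Finite E] in
include hA in
theorem apply_apply {a : MulAut V × MulAut E} (ha : a ∈ A) (v : V) : a.1 (a.1 v) = v := by
  have := congrArg (fun γ : MulAut V × MulAut E => γ.1 v) (hA a ha)
  simpa [MulAut.mul_apply] using this

omit [Finite V] [Finite E] in
theorem polar_invariant {γ : MulAut V} (h : ∀ v, q (γ v) = q v) (u v : V) :
    polar q (γ u) (γ v) = polar q u v := by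
  rw [polar, polar, ← map_mul, h, h, h]

omit [Finite V] [Finite E] in
include hV hE hb hA hA' in
theorem polar_range_self {a : MulAut V × MulAut E} (ha : a ∈ A) (v w : V) :
    polar q (diffHom a.1 v) (diffHom a.1 w) = 1 := by
  have h1 := polar_invariant q (hA' a ha) v (a.1 w)
  rw [apply_apply A hA ha] at h1
  rw [diffHom_apply, diffHom_apply, hb, polar_mul_right q hb, polar_mul_right q hb,
    polar_invariant q (hA' a ha) v w, h1]
  calc _ = polar q v w * polar q v w * (polar q v (a.1 w) * polar q v (a.1 w)) := by ac_rfl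
    _ = 1 := by rw [hE, hE, one_mul]

omit [Finite V] [Finite E] in
include hV hE hb hq hA hA' in
/-- An isometry commuting with `a ∈ A` fixes `[V, a]` pointwise. -/
theorem fix_range {a : MulAut V × MulAut E} (ha : a ∈ A) {γ : MulAut V} (hγ : ∀ v, q (γ v) = q v)
    (hc : ∀ v, γ (a.1 v) = a.1 (γ v)) (v : V) : γ (diffHom a.1 v) = diffHom a.1 v := by
  have h1 : γ (diffHom a.1 v) = diffHom a.1 (γ v) := by
    rw [diffHom_apply, diffHom_apply, map_mul, hc]
  have h2 := polar_range_self q hV hE hb A hA hA' ha (γ v) v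
  rw [← h1, polar, hγ, hE, mul_one] at h2
  have h3 := hq _ h2
  rw [eq_inv_of_mul_eq_one_left h3, inv_eq_self' hV]

omit [Finite V] [Finite E] in
include hA in
theorem comm_apply {a b : MulAut V × MulAut E} (ha : a ∈ A) (hb' : b ∈ A) (v : V) :
    a.1 (b.1 v) = b.1 (a.1 v) := by
  have h : a * b = b * a := by
    calc a * b = b * b * (a * b) * (a * a) := by rw [hA a ha, hA b hb', one_mul, mul_one]
      _ = b * (b * a * (b * a)) * a := by simp [mul_assoc]
      _ = b * a := by rw [hA _ (mul_mem hb' ha), mul_one]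
  exact congrArg (fun γ : MulAut V × MulAut E => γ.1 v) h

/-- The totally singular subgroup spanned by the ranges of `A`. -/
def span : Subgroup V := ⨆ a : A, (diffHom a.1.1).range

omit [Finite V] [Finite E] in
theorem diff_mem_span {a : MulAut V × MulAut E} (ha : a ∈ A) (v : V) : diffHom a.1 v ∈ span A :=
  le_iSup (fun a : A => (diffHom a.1.1).range) ⟨a, ha⟩ ⟨v, rfl⟩

omit [Finite V] [Finite E] in
include hV hE hb hq hA hA' in
theorem polar_span {x y : V} (hx : x ∈ span A) (hy : y ∈ span A) : polar q x y = 1 := by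
  have key : ∀ a ∈ A, ∀ c ∈ A, ∀ v w, polar q (diffHom a.1 v) (diffHom c.1 w) = 1 := by
    intro a ha c hc v w
    have hfix := fix_range q hV hE hb hq A hA hA' ha (hA' c hc) (fun u => comm_apply A hA hc ha u) v
    have h1 := polar_invariant q (hA' c hc) (diffHom a.1 v) w
    rw [hfix] at h1
    rw [diffHom_apply c.1 w, polar_mul_right q hb, h1, hE]
  let ker : V → Subgroup V := fun y =>
    { carrier := {x | polar q x y = 1}
      one_mem' := polar_one_left q hb y
      mul_mem' := fun {u v} (hu : polar q u y = 1) (hv : polar q v y = 1) => by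
        show polar q (u * v) y = 1
        rw [hb, hu, hv, one_mul]
      inv_mem' := fun {u} (hu : polar q u y = 1) => by
        show polar q u⁻¹ y = 1
        rw [inv_eq_self' hV, hu] }
  have h1 : span A ≤ ker y := by
    refine iSup_le fun a => ?_
    rintro _ ⟨v, rfl⟩
    show polar q (diffHom a.1.1 v) y = 1
    rw [polar_comm]
    have h2 : span A ≤ ker (diffHom a.1.1 v) := by
      refine iSup_le fun c => ?_
      rintro _ ⟨w, rfl⟩
      exact key c.1 c.2 a.1 a.2 w v
    exact h2 hy
  exact h1 hx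

omit [Finite V] [Finite E] in
include hV hE hb hq hA hA' in
theorem q_inj {x y : V} (hx : x ∈ span A) (hy : y ∈ span A) (h : q x = q y) : x = y := by
  have h1 := polar_span q hV hE hb hq A hA hA' hx hy
  rw [polar, h, hE, mul_one] at h1
  have h3 := hq _ h1
  rw [eq_inv_of_mul_eq_one_left h3, inv_eq_self' hV]

/-- The centraliser in `K` of a subgroup of `A`. -/
def centIn (B : Subgroup (MulAut V × MulAut E)) : Subgroup (MulAut V × MulAut E) :=
  K ⊓ centralizer (B : Set (MulAut V × MulAut E))

/-- The image of the block of `B` under `A`. -/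
def blockImage (B : Subgroup (MulAut V × MulAut E)) : Subgroup V :=
  ⨆ a : A, (moved (centIn K B)).map (diffHom a.1.1)

omit [Finite V] [Finite E] in
include hV hE hb hq hA hA' hK' in
theorem fix_moved {B : Subgroup (MulAut V × MulAut E)} {a : MulAut V × MulAut E} (ha : a ∈ A)
    (haB : a ∈ B) {u : V} (hu : u ∈ moved (centIn K B)) : a.1 u = u := by
  rw [← diffHom_eq_one_iff hV, ← MonoidHom.mem_ker]
  refine (show moved (centIn K B) ≤ (diffHom a.1).ker from iSup_le fun k => ?_) hu
  rintro _ ⟨v, rfl⟩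
  have hc : ∀ v, k.1.1 (a.1 v) = a.1 (k.1.1 v) := fun v =>
    congrArg (fun γ : MulAut V × MulAut E => γ.1 v) (mem_centralizer_iff.mp k.2.2 a haB).symm
  have h1 := fix_range q hV hE hb hq A hA hA' ha (hK' _ k.2.1) hc v
  rw [MonoidHom.mem_ker, diffHom_apply k.1.1, map_mul, ← h1, diffHom_apply, diffHom_apply, map_mul, hc]
  exact hV _

omit [Finite V] [Finite E] in
theorem map_moved_le {S S' : Subgroup (MulAut V × MulAut E)} (γ : MulAut V × MulAut E)
    (h : ∀ k ∈ S, γ * k * γ⁻¹ ∈ S') : (moved S).map γ.1.toMonoidHom ≤ moved S' := by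
  rw [moved, Subgroup.map_iSup]
  refine iSup_le fun k => ?_
  rintro _ ⟨_, ⟨v, rfl⟩, rfl⟩
  have h1 := diff_mem_moved (h k.1 k.2) (γ.1 v)
  simpa [diffHom_apply, MulAut.mul_apply, map_mul] using h1

omit [Finite V] [Finite E] in
theorem conj_mem_centIn {B B' : Subgroup (MulAut V × MulAut E)} {γ k : MulAut V × MulAut E}
    (hγK : γ ∈ normalizer (K : Set (MulAut V × MulAut E))) (h : ∀ b ∈ B', γ⁻¹ * b * γ ∈ B)
    (hk : k ∈ centIn K B) : γ * k * γ⁻¹ ∈ centIn K B' := by
  refine ⟨(mem_normalizer_iff.mp hγK k).mp hk.1, mem_centralizer_iff.mpr fun b hb => ?_⟩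
  have h1 := mem_centralizer_iff.mp hk.2 _ (h b hb)
  calc b * (γ * k * γ⁻¹) = γ * ((γ⁻¹ * b * γ) * k) * γ⁻¹ := by group
    _ = γ * (k * (γ⁻¹ * b * γ)) * γ⁻¹ := by rw [h1]
    _ = γ * k * γ⁻¹ * b := by group

omit [Finite V] [Finite E] in
include hA in
theorem normal_in_A {B : Subgroup (MulAut V × MulAut E)} (hB : B ≤ A) {a : MulAut V × MulAut E}
    (ha : a ∈ A) {b : MulAut V × MulAut E} (hb' : b ∈ B) : a⁻¹ * b * a = b := by
  have h : ∀ x ∈ A, x⁻¹ = x := fun x hx => (eq_inv_of_mul_eq_one_left (hA x hx)).symm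
  have hc : b * a = a * b := by
    calc b * a = (b * a)⁻¹ := (h _ (mul_mem (hB hb') ha)).symm
      _ = a * b := by rw [mul_inv_rev, h a ha, h b (hB hb')]
  rw [mul_assoc, hc, inv_mul_cancel_left]

omit [Finite V] [Finite E] in
include hA in
theorem blockImage_le (hAK : A ≤ normalizer (K : Set (MulAut V × MulAut E)))
    {B : Subgroup (MulAut V × MulAut E)} (hB : B ≤ A) :
    blockImage A K B ≤ moved (centIn K B) ⊓ span A := by
  refine iSup_le fun a => ?_
  rintro _ ⟨u, hu, rfl⟩
  refine ⟨?_, diff_mem_span A a.2 u⟩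
  rw [diffHom_apply]
  refine mul_mem (map_moved_le a.1 (fun k hk => conj_mem_centIn K (hAK a.2)
    (fun b hb => (normal_in_A A hA hB a.2 hb).symm ▸ hb) hk) ?_) hu
  exact mem_map_of_mem _ hu

omit [Finite V] [Finite E] in
include hV hE hb hq hA hA' hK' in
theorem blockImage_fixed {B B' : Subgroup (MulAut V × MulAut E)} (hBA : B ≤ A) (hB'A : B' ≤ A)
    (hBB : A ≤ B ⊔ B') {k : MulAut V × MulAut E} (hk : k ∈ centIn K B) {d : V}
    (hd : d ∈ blockImage A K B') : k.1 d = d := by
  rw [← diffHom_eq_one_iff hV, ← MonoidHom.mem_ker]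
  refine (show blockImage A K B' ≤ (diffHom k.1).ker from iSup_le fun a => ?_) hd
  rintro _ ⟨u, hu, rfl⟩
  rw [MonoidHom.mem_ker, diffHom_eq_one_iff hV]
  have hn : B ≤ normalizer (B' : Set (MulAut V × MulAut E)) := fun b hb' => by
    rw [mem_normalizer_iff']
    intro x
    have hcomm : ∀ y ∈ A, y * b = b * y := fun y hy => by
      have := normal_in_A A hA le_rfl (hBA hb') hy
      rw [mul_assoc, inv_mul_eq_iff_eq_mul] at this
      exact this
    constructor <;> intro hx
    · have h0 : x ∈ A := by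
        simpa using mul_mem (hB'A hx) (inv_mem (hBA hb'))
      rwa [hcomm x h0] at hx
    · have h0 : x ∈ A := by
        simpa using mul_mem (inv_mem (hBA hb')) (hB'A hx)
      rwa [hcomm x h0]
  have ha := hBB a.2
  rw [← SetLike.mem_coe, coe_mul_of_left_le_normalizer_right _ _ hn] at ha
  obtain ⟨b, hb', b', hb'', he⟩ := ha
  have hae : a.1.1 u = b.1 u := by
    rw [← he]
    show b.1 (b'.1 u) = b.1 u
    rw [fix_moved q hV hE hb hq A K hA hA' hK' (hB'A hb'') hb'' hu]
  rw [diffHom_apply, hae, ← diffHom_apply]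
  refine fix_range q hV hE hb hq A hA hA' (hBA hb') (hK' _ hk.1) (fun v => ?_) u
  exact congrArg (fun γ : MulAut V × MulAut E => γ.1 v) (mem_centralizer_iff.mp hk.2 b hb').symm

omit [Finite V] [Finite E] in
include hV hA hKE in
/-- If `A` maps the block of `B` to `1`, then `A` centralises `C_K(B)`. -/
theorem commute_of_blockImage_eq_bot [Finite V] [Finite E] (hKodd : Odd (Nat.card K))
    (hAK : A ≤ normalizer (K : Set (MulAut V × MulAut E)))
    {B : Subgroup (MulAut V × MulAut E)} (hBA : B ≤ A) (h : blockImage A K B = ⊥)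
    {a k : MulAut V × MulAut E} (ha : a ∈ A) (hk : k ∈ centIn K B) : a * k = k * a := by
  have hfix : ∀ u ∈ moved (centIn K B), a.1 u = u := fun u hu => by
    have := le_iSup (fun a : A => (moved (centIn K B)).map (diffHom a.1.1)) ⟨a, ha⟩ (mem_map_of_mem _ hu)
    rw [show (⨆ a : A, (moved (centIn K B)).map (diffHom a.1.1)) = ⊥ from h, mem_bot,
      diffHom_eq_one_iff hV] at this
    exact this
  have hk' : a * k * a⁻¹ ∈ centIn K B :=
    conj_mem_centIn K (hAK ha) (fun b hb => (normal_in_A A hA hBA ha hb).symm ▸ hb) hk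
  set k' := a * k * a⁻¹ with hk'def
  have hU : ∀ u ∈ moved (centIn K B), k'.1 u = k.1 u := by
    intro u hu
    have hku : k.1 u ∈ moved (centIn K B) := by
      have := mul_mem (diff_mem_moved hk u) (inv_mem hu)
      simpa using this
    have h1 : k'.1 (a.1 u) = a.1 (k.1 u) := by
      rw [hk'def]; simp [MulAut.mul_apply]
    rwa [hfix u hu, hfix _ hku] at h1
  set c := k⁻¹ * k'
  have hcm : c ∈ centIn K B := mul_mem (inv_mem hk) hk'
  have hc : c * c = 1 := by
    refine Prod.ext (MulEquiv.ext fun v => ?_) (by simp [hKE c hcm.1])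
    have h1 := diff_mem_moved hcm v
    have h2 : c.1 (c.1 v * v) = c.1 v * v := by
      show (k.1)⁻¹ (k'.1 (c.1 v * v)) = c.1 v * v
      rw [hU _ h1]
      exact k.1.symm_apply_apply _
    rw [map_mul, mul_comm (c.1 v) v] at h2
    have h3 := mul_right_cancel (b := c.1 v) h2
    simpa [MulAut.mul_apply] using h3
  have : Finite (MulAut V) := Finite.of_injective (fun f : MulAut V => (f : V → V)) DFunLike.coe_injective
  have : Finite (MulAut E) := Finite.of_injective (fun f : MulAut E => (f : E → E)) DFunLike.coe_injective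
  have hc1 : c = 1 := by
    have h2 : orderOf c ∣ 2 := orderOf_dvd_of_pow_eq_one (by rw [sq]; exact hc)
    have h3 : orderOf c ∣ Nat.card K := Subgroup.orderOf_dvd_natCard K hcm.1
    rw [← orderOf_eq_one_iff]
    exact Nat.eq_one_of_dvd_coprimes (Nat.coprime_two_left.mpr hKodd) h2 h3
  have := inv_mul_eq_one.mp hc1
  calc a * k = a * k * a⁻¹ * a := by group
    _ = k * a := by rw [← hk'def, ← this]

include hV hKE hE hb hq hA hAE hA' hK' in
theorem card_le_two_of_transitive (hKodd : Odd (Nat.card K))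
    (hAK : A ≤ normalizer (K : Set (MulAut V × MulAut E))) (N : Subgroup (MulAut V × MulAut E))
    (hN' : ∀ n ∈ N, ∀ v, q (n.1 v) = n.2 (q v)) (hNA : N ≤ normalizer (A : Set (MulAut V × MulAut E)))
    (hNK : N ≤ normalizer (K : Set (MulAut V × MulAut E)))
    (htrans : ∀ x y : E, x ≠ 1 → y ≠ 1 → ∃ n ∈ N, n.2 x = y)
    (hfaith : ∀ a ∈ A, (∀ k ∈ K, a * k = k * a) → a = 1)
    (hgen : K ≤ ⨆ B : {B : Subgroup (MulAut V × MulAut E) // B ≤ A ∧ B.relIndex A ≤ 2}, centIn K B.1) :
    Nat.card A ≤ 2 := by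
  by_contra hlarge
  have hsup : ∀ {B B' : Subgroup (MulAut V × MulAut E)}, B ≤ A → B' ≤ A → B.relIndex A ≤ 2 →
      B'.relIndex A ≤ 2 → B ≠ B' → A ≤ B ⊔ B' := by
    have : Finite (MulAut V) := Finite.of_injective (fun f : MulAut V => (f : V → V)) DFunLike.coe_injective
    have : Finite (MulAut E) := Finite.of_injective (fun f : MulAut E => (f : E → E)) DFunLike.coe_injective
    intro B B' hB hB' h h' hne
    by_contra hnle
    have hm : ∀ {X Y : Subgroup (MulAut V × MulAut E)}, X ≤ Y → Y ≤ A → X.relIndex A ≤ 2 → ¬ A ≤ Y →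
        X = Y := by
      intro X Y hXY hYA hX hY
      have h1 := Subgroup.relIndex_mul_relIndex X Y A hXY hYA
      have h2 : Y.relIndex A ≠ 1 := fun e => hY (relIndex_eq_one.mp e)
      have h3 : X.relIndex A ≠ 0 := Subgroup.index_ne_zero_of_finite
      have h4 : Y.relIndex A ≠ 0 := Subgroup.index_ne_zero_of_finite
      refine le_antisymm hXY (relIndex_eq_one.mp ?_)
      have h5 : X.relIndex Y ≠ 0 := Subgroup.index_ne_zero_of_finite
      nlinarith [Nat.pos_of_ne_zero h5, Nat.pos_of_ne_zero h4,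
        (show 2 ≤ Y.relIndex A by omega)]
    exact hne ((hm le_sup_left (sup_le hB hB') h hnle).trans (hm le_sup_right (sup_le hB hB') h' hnle).symm)
  have hsub : ∀ {B B' : Subgroup (MulAut V × MulAut E)}, B ≤ A → B' ≤ A → B.relIndex A ≤ 2 →
      B'.relIndex A ≤ 2 → blockImage A K B ≠ ⊥ → blockImage A K B' ≠ ⊥ → B = B' := by
    intro B B' hB hB' hi hi' hd hd'
    by_contra hne
    obtain ⟨d, hdm, hd1⟩ := (bot_or_exists_ne_one _).resolve_left hd
    obtain ⟨e, hem, he1⟩ := (bot_or_exists_ne_one _).resolve_left hd'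
    have hds := (blockImage_le A K hA hAK hB hdm).2
    have hes := (blockImage_le A K hA hAK hB' hem).2
    have hodd : ∀ {C : Subgroup (MulAut V × MulAut E)}, Odd (Nat.card (centIn K C)) := fun {C} =>
      Odd.of_dvd_nat hKodd (card_dvd_of_le inf_le_left)
    have zero : ∀ {C : Subgroup (MulAut V × MulAut E)}, C ≤ A → ∀ v ∈ blockImage A K C,
        (∀ k ∈ centIn K C, k.1 v = v) → v = 1 := fun {C} hC v hv hf =>
      eq_one_of_moved_of_fixed hV hodd (blockImage_le A K hA hAK hC hv).1 hf
    have hde : d * e ≠ 1 := by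
      intro h
      refine hd1 (zero hB d hdm fun k hk => ?_)
      rw [eq_inv_of_mul_eq_one_left h, inv_eq_self' hV]
      exact blockImage_fixed q hV hE hb hq A K hA hA' hK' hB hB' (hsup hB hB' hi hi' hne) hk hem
    have hqd : q d ≠ 1 := fun h => hd1 (hq d h)
    have hqde : q (d * e) ≠ 1 := fun h => hde (hq _ h)
    obtain ⟨n, hn, hne'⟩ := htrans _ _ hqd hqde
    set C := B.map (MulAut.conj n).toMonoidHom
    have hCA : C ≤ A := by
      rintro _ ⟨b, hb', rfl⟩
      exact (mem_normalizer_iff.mp (hNA hn) b).mp (hB hb')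
    have hAn : A.map (MulAut.conj n).toMonoidHom = A := by
      refine le_antisymm ?_ fun a ha => ⟨n⁻¹ * a * n, ?_, by simp [mul_assoc]⟩
      · rintro _ ⟨a, ha, rfl⟩
        exact (mem_normalizer_iff.mp (hNA hn) a).mp ha
      · exact (mem_normalizer_iff'.mp (hNA hn) _).mpr (by simpa [mul_assoc] using ha)
    have hCi : C.relIndex A ≤ 2 := by
      rw [← hAn]
      rw [Subgroup.relIndex_map_map_of_injective _ _ (MulAut.conj n).injective]
      exact hi
    have hnd : n.1 d ∈ blockImage A K C := by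
      refine (show (blockImage A K B).map n.1.toMonoidHom ≤ blockImage A K C from ?_) (mem_map_of_mem _ hdm)
      rw [blockImage, Subgroup.map_iSup]
      refine iSup_le fun a => ?_
      rintro _ ⟨_, ⟨u, hu, rfl⟩, rfl⟩
      have hu' : n.1 u ∈ moved (centIn K C) :=
        map_moved_le n (fun k hk => conj_mem_centIn K (hNK hn) (fun b hb' => by
          obtain ⟨b0, hb0, rfl⟩ := hb'
          simpa [mul_assoc] using hb0) hk) (mem_map_of_mem _ hu)
      have ha' : n * a.1 * n⁻¹ ∈ A := (mem_normalizer_iff.mp (hNA hn) a.1).mp a.2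
      refine le_iSup (fun a : A => (moved (centIn K C)).map (diffHom a.1.1)) ⟨_, ha'⟩ ⟨_, hu', ?_⟩
      simp [diffHom_apply, MulAut.mul_apply]
    have hnds := (blockImage_le A K hA hAK hCA hnd).2
    have heq : n.1 d = d * e :=
      q_inj q hV hE hb hq A hA hA' hnds (mul_mem hds hes) ((hN' n hn d).trans hne')
    rw [heq] at hnd
    rcases eq_or_ne C B with hCB | hCB
    · have hee : e ∈ blockImage A K B := by simpa using mul_mem (inv_mem hdm) (hCB ▸ hnd : d * e ∈ blockImage A K B)
      exact he1 (zero hB e hee fun k hk =>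
        blockImage_fixed q hV hE hb hq A K hA hA' hK' hB hB' (hsup hB hB' hi hi' hne) hk hem)
    · refine hd1 (zero hB d hdm fun k hk => ?_)
      have h1 := blockImage_fixed q hV hE hb hq A K hA hA' hK' hB hCA (hsup hB hCA hi hCi hCB.symm) hk hnd
      have h2 := blockImage_fixed q hV hE hb hq A K hA hA' hK' hB hB' (hsup hB hB' hi hi' hne) hk hem
      rw [map_mul, h2] at h1
      exact mul_right_cancel h1
  have hcomm : ∀ {b : MulAut V × MulAut E}, b ∈ A →
      (∀ B : Subgroup (MulAut V × MulAut E), B ≤ A → B.relIndex A ≤ 2 → blockImage A K B ≠ ⊥ → b ∈ B) →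
      b = 1 := by
    intro b hb' hbB
    refine hfaith b hb' fun k hk => ?_
    have hle : K ≤ centralizer ({b} : Set (MulAut V × MulAut E)) := hgen.trans (iSup_le fun B x hx => by
      rw [mem_centralizer_singleton_iff]
      by_cases h : blockImage A K B.1 = ⊥
      · exact (commute_of_blockImage_eq_bot hV A K hA hKE hKodd hAK B.2.1 h hb' hx).symm
      · exact (mem_centralizer_iff.mp hx.2 b (hbB B.1 B.2.1 B.2.2 h)).symm)
    exact (mem_centralizer_singleton_iff.mp (hle hk)).symm
  by_cases hex : ∃ B0 : Subgroup (MulAut V × MulAut E), B0 ≤ A ∧ B0.relIndex A ≤ 2 ∧ blockImage A K B0 ≠ ⊥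
  · obtain ⟨B0, hB0, hi0, hd0⟩ := hex
    have hbot : B0 = ⊥ := by
      rw [eq_bot_iff]
      intro b hb'
      exact hcomm (hB0 hb') fun B hB hi hd => hsub hB0 hB hi0 hi hd0 hd ▸ hb'
    rw [hbot, Subgroup.relIndex_bot_left] at hi0
    exact hlarge hi0
  · push Not at hex
    have hbot : A = ⊥ := by
      rw [eq_bot_iff]
      intro b hb'
      exact hcomm hb' fun B hB hi hd => absurd (hex B hB hi) hd
    rw [hbot] at hlarge
    simp at hlarge

end

end Cfsg.Agent.Lib.LocalChar.InvolOneClass
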