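import Cfsg.Prelude.Def_Local
import Cfsg.Agent.Lib.LocalChar.InvolOneClass.Form
import Cfsg.Agent.Lib.Components.Signalizer
import Cfsg.Agent.Lib.Coprime.Action
import Cfsg.Agent.Lib.Coprime.Abelian
import Cfsg.Agent.Lib.PGroupFrattini
import Mathlib

/-!
A 2-group extension cannot occur on top of `O_2` when all involutions are central in `O_2` and conjugate:
the contradiction configuration.
-/

set_option autoImplicit false
set_option linter.style.haveILetI false

namespace Cfsg.Agent.Lib.LocalChar.InvolOneClass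

open Subgroup
open scoped commutatorElement Pointwise

variable {X : Type*} [Group X]

/-- Conjugates of commuting elements commute. -/
theorem conj_commute {g x y : X} (h : x * y = y * x) :
    (g * x * g⁻¹) * (g * y * g⁻¹) = (g * y * g⁻¹) * (g * x * g⁻¹) := by
  simpa [mul_assoc] using congrArg (fun z => g * z * g⁻¹) h

theorem normalizer_le_normalizer_centralizer' {G : Type*} [Group G] (H : Subgroup G) :
    normalizer (H : Set G) ≤ normalizer ((centralizer (H : Set G) : Subgroup G) : Set G) :=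
  Coprime.normalizer_le_normalizer_centralizer H

variable [Finite X]

set_option maxHeartbeats 1000000 in
/-- The configuration in which a proper 2-group `P ≥ R ⊓ N(K)` has `K ⊔ P` normal in `N(K)` is impossible. -/
theorem false_of_config (R K : Subgroup X) [R.Normal] (hR : IsPGroup 2 R) (hK : Odd (Nat.card K))
    (hR2 : ∀ S : Subgroup X, S.Normal → IsPGroup 2 S → S ≤ R)
    (hKR : ∀ k ∈ K, k ∈ centralizer (R : Set X) → k = 1)
    (hF : ∀ g : X, ∃ r ∈ R, ∃ m ∈ normalizer (K : Set X), g = r * m)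
    (hinvR : ∀ x : X, x * x = 1 → x ∈ R ∧ (∀ r ∈ R, r * x = x * r) ∧ ∀ k ∈ K, k * x = x * k)
    (htrans : ∀ x y : X, x * x = 1 → x ≠ 1 → y * y = 1 → y ≠ 1 → ∃ g : X, g * x * g⁻¹ = y)
    (hthree : ∀ x : X, ∃ y : X, y * y = 1 ∧ y ≠ 1 ∧ y ≠ x)
    (P₀ : Subgroup X) (hP₀ : IsPGroup 2 P₀) (hP₀M : P₀ ≤ normalizer (K : Set X))
    (hCP₀ : R ⊓ normalizer (K : Set X) ≤ P₀) (hP₀C : P₀ ≠ R ⊓ normalizer (K : Set X))
    (hP₀n : normalizer (K : Set X) ≤ normalizer ((K ⊔ P₀ : Subgroup X) : Set X)) : False := by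
  classical
  haveI : Fact (Nat.Prime 2) := ⟨Nat.prime_two⟩
  set M := normalizer (K : Set X) with hM
  set C := R ⊓ M with hC
  -- choose `P` minimal
  obtain ⟨P, ⟨hPp, hPM, hCP, hPC, hPn⟩, hPmin⟩ :=
    (Set.toFinite {P : Subgroup X | IsPGroup 2 P ∧ P ≤ M ∧ C ≤ P ∧ P ≠ C ∧
      M ≤ normalizer ((K ⊔ P : Subgroup X) : Set X)}).exists_minimal ⟨P₀, hP₀, hP₀M, hCP₀, hP₀C, hP₀n⟩
  have hKM : K ≤ M := le_normalizer
  have hCn : M ≤ normalizer (C : Set X) := by
    refine le_trans ?_ inf_normalizer_le_normalizer_inf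
    refine le_inf ?_ le_normalizer
    rw [normalizer_eq_top]; exact le_top
  have hcopK : ∀ {S : Subgroup X}, IsPGroup 2 S → (Nat.card K).Coprime (Nat.card S) := by
    intro S hS
    obtain ⟨j, hj⟩ := IsPGroup.iff_card.mp hS
    rw [hj]
    exact (Nat.coprime_two_right.mpr hK).pow_right j
  have hKPinf : ∀ {S : Subgroup X}, IsPGroup 2 S → K ⊓ S = ⊥ := fun hS =>
    Coprime.inf_eq_bot_of_coprime (hcopK hS)
  -- `C` centralises `K`
  have hCK : ∀ c ∈ C, ∀ k ∈ K, k * c = c * k := by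
    intro c hc k hk
    have h1 : k * c * k⁻¹ * c⁻¹ ∈ K ⊓ R := by
      refine ⟨?_, R.mul_mem (‹R.Normal›.conj_mem c hc.1 k) (R.inv_mem hc.1)⟩
      have := K.mul_mem hk ((mem_normalizer_iff.mp hc.2 k⁻¹).mp (K.inv_mem hk))
      simpa [mul_assoc] using this
    rw [hKPinf hR, mem_bot, mul_inv_eq_one, mul_inv_eq_iff_eq_mul] at h1
    exact h1
  -- Frattini argument
  set N := M ⊓ normalizer (P : Set X) with hN
  have hPK : P ≤ normalizer (K : Set X) := hPM
  have hMN : ∀ m ∈ M, ∃ k ∈ K, ∃ n ∈ N, m = k * n := by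
    intro m hm
    haveI : Group.IsNilpotent P := hPp.isNilpotent
    obtain ⟨k, hk, hkP⟩ := Coprime.exists_conj_eq_of_le_sup (A := P) (N := K) hPK
      (hcopK hPp).symm (Or.inl inferInstance) (B := MulAut.conj m • P) (by
        rintro _ ⟨x, hx, rfl⟩
        have := (mem_normalizer_iff.mp (hPn hm) x).mp (mem_sup_right hx)
        rw [sup_comm] at this
        exact this) (Coprime.card_conj_smul m P)
    refine ⟨k, hk, k⁻¹ * m, ⟨show k⁻¹ * m ∈ M from mul_mem (inv_mem (hKM hk)) hm, ?_⟩, by group⟩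
    exact Coprime.mem_normalizer_of_conj_smul_eq (by
      rw [Coprime.conj_smul_mul, ← hkP, Coprime.conj_inv_smul_smul])
  have hMle : ∀ {S : Subgroup X}, K ≤ normalizer (S : Set X) → N ≤ normalizer (S : Set X) →
      M ≤ normalizer (S : Set X) := by
    intro S h1 h2 m hm
    obtain ⟨k, hk, n, hn, rfl⟩ := hMN m hm
    exact mul_mem (h1 hk) (h2 hn)
  have hminN : ∀ S : Subgroup X, C ≤ S → S ≤ P → N ≤ normalizer (S : Set X) → S = C ∨ S = P := by
    intro S hCS hSP hNS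
    by_cases hS : S = C
    · exact Or.inl hS
    refine Or.inr (le_antisymm hSP (hPmin ⟨hPp.to_le hSP, hSP.trans hPM, hCS, hS, ?_⟩ hSP))
    refine hMle (fun k hk => le_normalizer (mem_sup_left hk)) ?_
    intro n hn
    refine Coprime.mem_normalizer_of_conj_smul_eq ?_
    show (K ⊔ S).map (MulAut.conj n).toMonoidHom = K ⊔ S
    rw [Subgroup.map_sup, show K.map (MulAut.conj n).toMonoidHom = K from Coprime.conj_smul_eq_self hn.1,
      show S.map (MulAut.conj n).toMonoidHom = S from Coprime.conj_smul_eq_self (hNS hn)]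
  -- `P/C` has exponent two
  have hPnC : P ≤ normalizer (C : Set X) := hPM.trans hCn
  have hsqC : ∀ x ∈ P, x * x ∈ C := by
    haveI hn' : (C.subgroupOf P).Normal := normal_subgroupOf_iff_le_normalizer hCP |>.mpr hPnC
    have hne : C.subgroupOf P ≠ ⊤ := fun h => hPC (le_antisymm (subgroupOf_eq_top.mp h) hCP)
    haveI : Nontrivial (P ⧸ C.subgroupOf P) := (QuotientGroup.nontrivial_iff).mpr hne
    have hqp : IsPGroup 2 (P ⧸ C.subgroupOf P) := hPp.to_quotient _
    haveI := hqp.center_nontrivial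
    obtain ⟨z, hz⟩ : ∃ z : center (P ⧸ C.subgroupOf P), orderOf z = 2 := by
      apply exists_prime_orderOf_dvd_card'
      obtain ⟨j, hj⟩ := IsPGroup.iff_card.mp (hqp.to_subgroup (center _))
      have h1 : j ≠ 0 := by
        rintro rfl
        exact absurd hj (by rw [pow_zero]; exact Finite.one_lt_card.ne')
      rw [hj]
      exact dvd_pow_self 2 h1
    let Z : Subgroup (P ⧸ C.subgroupOf P) :=
      { carrier := {w | w ∈ center _ ∧ w * w = 1}
        one_mem' := ⟨one_mem _, mul_one _⟩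
        mul_mem' := by
          rintro a b ⟨ha, ha'⟩ ⟨hb, hb'⟩
          refine ⟨mul_mem ha hb, ?_⟩
          have hab : b * a = a * b := (mem_center_iff.mp ha b)
          calc a * b * (a * b) = a * (b * a) * b := by group
            _ = a * a * (b * b) := by rw [hab]; group
            _ = 1 := by rw [ha', hb', one_mul]
        inv_mem' := by
          rintro a ⟨ha, ha'⟩
          exact ⟨inv_mem ha, by rw [← mul_inv_rev, ha', inv_one]⟩ }
    let Y : Subgroup X := (Z.comap (QuotientGroup.mk' (C.subgroupOf P))).map P.subtype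
    have hYP : Y ≤ P := map_subtype_le _
    have hCY : C ≤ Y := fun c hc => ⟨⟨c, hCP hc⟩, by
      rw [SetLike.mem_coe, mem_comap, QuotientGroup.mk'_apply,
        (QuotientGroup.eq_one_iff (⟨c, hCP hc⟩ : P)).mpr hc]
      exact one_mem _, rfl⟩
    have hYmem : ∀ y ∈ P, y ∈ Y ↔ (∀ x ∈ P, ⁅y, x⁆ ∈ C) ∧ y * y ∈ C := by
      intro y hy
      constructor
      · rintro ⟨y', hy', rfl⟩
        refine ⟨fun x hx => ?_, ?_⟩
        · have h1 := mem_center_iff.mp hy'.1 (QuotientGroup.mk' _ ⟨x, hx⟩)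
          have h2 : QuotientGroup.mk' (C.subgroupOf P) ⁅y', (⟨x, hx⟩ : P)⁆ = 1 := by
            rw [map_commutatorElement, commutatorElement_eq_one_iff_mul_comm]
            exact h1.symm
          exact (QuotientGroup.eq_one_iff (⁅y', (⟨x, hx⟩ : P)⁆)).mp h2
        · exact (QuotientGroup.eq_one_iff (y' * y')).mp hy'.2
      · rintro ⟨h1, h2⟩
        refine ⟨⟨y, hy⟩, ⟨mem_center_iff.mpr fun w => ?_, ?_⟩, rfl⟩
        · obtain ⟨x, rfl⟩ := QuotientGroup.mk'_surjective _ w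
          refine (commutatorElement_eq_one_iff_mul_comm.mp ?_).symm
          rw [← map_commutatorElement]
          exact (QuotientGroup.eq_one_iff _).mpr (h1 x x.2)
        · exact (QuotientGroup.eq_one_iff ((⟨y, hy⟩ : P) * ⟨y, hy⟩)).mpr (mem_subgroupOf.mpr h2)
    have hNY : N ≤ normalizer (Y : Set X) := by
      have key : ∀ n ∈ N, ∀ y ∈ Y, n * y * n⁻¹ ∈ Y := by
        intro n hn y hy
        have hyP := hYP hy
        have hnyP : n * y * n⁻¹ ∈ P := (mem_normalizer_iff.mp hn.2 y).mp hyP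
        obtain ⟨h1, h2⟩ := (hYmem y hyP).mp hy
        refine (hYmem _ hnyP).mpr ⟨fun x hx => ?_, ?_⟩
        · have hx' : n⁻¹ * x * n ∈ P := (mem_normalizer_iff'.mp hn.2 _).mpr (by simpa [mul_assoc] using hx)
          have := (mem_normalizer_iff.mp (hCn hn.1) _).mp (h1 _ hx')
          simpa [commutatorElement_def, mul_assoc] using this
        · have := (mem_normalizer_iff.mp (hCn hn.1) _).mp h2
          simpa [mul_assoc] using this
      intro n hn
      rw [mem_normalizer_iff]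
      refine fun y => ⟨key n hn y, fun h => ?_⟩
      simpa [mul_assoc] using key n⁻¹ (inv_mem hn) _ h
    rcases hminN Y hCY hYP hNY with h | h
    · exfalso
      obtain ⟨y, hy⟩ := QuotientGroup.mk'_surjective (C.subgroupOf P) (z : P ⧸ C.subgroupOf P)
      have h2 : (z : P ⧸ C.subgroupOf P) * z = 1 := by
        rw [← Subgroup.coe_mul, ← sq, ← hz, pow_orderOf_eq_one]; rfl
      have hyY : (y : X) ∈ Y := ⟨y, by rw [SetLike.mem_coe, mem_comap, hy]; exact ⟨z.2, h2⟩, rfl⟩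
      rw [h] at hyY
      have : (z : P ⧸ C.subgroupOf P) = 1 := by rw [← hy]; exact (QuotientGroup.eq_one_iff y).mpr hyY
      rw [← Subgroup.orderOf_coe, this, orderOf_one] at hz
      norm_num at hz
    · exact fun x hx => ((hYmem x hx).mp (h ▸ hx)).2
  -- the involutions
  let E : Subgroup X :=
    { carrier := {x | x * x = 1}
      one_mem' := mul_one 1
      mul_mem' := fun {a b} (ha : a * a = 1) (hb : b * b = 1) => by
        show a * b * (a * b) = 1
        have hab : b * a = a * b := ((hinvR a ha).2.1 b (hinvR b hb).1)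
        calc a * b * (a * b) = a * (b * a) * b := by group
          _ = a * a * (b * b) := by rw [hab]; group
          _ = 1 := by rw [ha, hb, one_mul]
      inv_mem' := fun {a} (ha : a * a = 1) => by
        show a⁻¹ * a⁻¹ = 1
        rw [← mul_inv_rev, ha, inv_one] }
  haveI hEn : E.Normal := ⟨fun e (he : e * e = 1) g => by
    show g * e * g⁻¹ * (g * e * g⁻¹) = 1
    calc g * e * g⁻¹ * (g * e * g⁻¹) = g * (e * e) * g⁻¹ := by group
      _ = 1 := by rw [he]; group⟩
  have hEC : E ≤ C := fun e he => ⟨(hinvR e he).1, by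
    show e ∈ M
    rw [hM, mem_normalizer_iff]
    intro k
    have h1 : ∀ k ∈ K, e * k * e⁻¹ = k := fun k hk => by
      rw [← (hinvR e he).2.2 k hk]; group
    refine ⟨fun hk => (h1 k hk).symm ▸ hk, fun hk => ?_⟩
    have h2 := h1 _ hk
    have h3 : e * k * e⁻¹ = k := by
      have := congrArg (fun z => e⁻¹ * z * e) h2
      simpa [mul_assoc] using this
    exact h3 ▸ hk⟩
  -- transitivity of `N`
  have hNtrans : ∀ x y : X, x * x = 1 → x ≠ 1 → y * y = 1 → y ≠ 1 → ∃ n ∈ N, n * x * n⁻¹ = y := by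
    intro x y hx hx1 hy hy1
    obtain ⟨g, hg⟩ := htrans x y hx hx1 hy hy1
    obtain ⟨r, hr, m, hm, rfl⟩ := hF g
    obtain ⟨k, hk, n, hn, rfl⟩ := hMN m hm
    refine ⟨n, hn, ?_⟩
    have hx' : (n * x * n⁻¹) * (n * x * n⁻¹) = 1 := hEn.conj_mem x hx n
    obtain ⟨-, h1, h2⟩ := hinvR _ hx'
    calc n * x * n⁻¹ = r * (n * x * n⁻¹) * r⁻¹ := by rw [h1 r hr]; group
      _ = r * (k * (n * x * n⁻¹) * k⁻¹) * r⁻¹ := by rw [h2 k hk]; group
      _ = r * (k * n) * x * (r * (k * n))⁻¹ := by group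
      _ = y := hg
  -- `P` centralises the involutions
  have hPE : ∀ e : X, e * e = 1 → ∀ x ∈ P, x * e = e * x := by
    have hPne : P ≠ ⊥ := fun h => hPC (le_antisymm (h ▸ bot_le) hCP)
    haveI : Nontrivial P := (nontrivial_iff_ne_bot P).mpr hPne
    haveI := hPp.center_nontrivial
    obtain ⟨w, hw⟩ : ∃ w : center P, orderOf w = 2 := by
      apply exists_prime_orderOf_dvd_card'
      obtain ⟨j, hj⟩ := IsPGroup.iff_card.mp (hPp.to_subgroup (center P))
      have h1 : j ≠ 0 := by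
        rintro rfl
        exact absurd hj (by rw [pow_zero]; exact Finite.one_lt_card.ne')
      rw [hj]
      exact dvd_pow_self 2 h1
    have hw1 : ((w : P) : X) ≠ 1 := by
      intro h
      rw [← Subgroup.orderOf_coe, ← Subgroup.orderOf_coe, h, orderOf_one] at hw
      norm_num at hw
    have hw2 : ((w : P) : X) * ((w : P) : X) = 1 := by
      rw [← Subgroup.coe_mul, ← Subgroup.coe_mul, ← sq, ← hw, pow_orderOf_eq_one]; rfl
    intro e he x hx
    by_cases he1 : e = 1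
    · subst he1; simp
    obtain ⟨n, hn, rfl⟩ := hNtrans _ e hw2 hw1 he he1
    have hx' : n⁻¹ * x * n ∈ P := (mem_normalizer_iff'.mp hn.2 _).mpr (by simpa [mul_assoc] using hx)
    have h1 : n⁻¹ * x * n * ((w : P) : X) = ((w : P) : X) * (n⁻¹ * x * n) :=
      congrArg Subtype.val (mem_center_iff.mp w.2 ⟨_, hx'⟩)
    have h2 := conj_commute (g := n) h1
    simpa [mul_assoc] using h2
  -- `K₁ = [K, P]`
  set K₁ := ⁅K, P⁆ with hK₁
  have hK₁K : K₁ ≤ K := Coprime.commutator_le_of_le_normalizer' hPK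
  have hK₁n : M ≤ normalizer (K₁ : Set X) := by
    refine hMle (Coprime.left_le_normalizer_commutator K P) fun n hn => ?_
    refine Coprime.mem_normalizer_of_conj_smul_eq ?_
    show (⁅K, P⁆).map (MulAut.conj n).toMonoidHom = _
    rw [map_commutator, show K.map (MulAut.conj n).toMonoidHom = K from Coprime.conj_smul_eq_self hn.1,
      show P.map (MulAut.conj n).toMonoidHom = P from Coprime.conj_smul_eq_self hn.2]
  have hKC1 : ∀ {e k : X}, e * e = 1 → k ∈ K → k * e = e * k := fun he hk => (hinvR _ he).2.2 _ hk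
  have hRK₁ : ¬ R ≤ centralizer (K₁ : Set X) := by
    intro h
    have hbot : ∀ k ∈ K, ∀ x ∈ P, k * x = x * k := by
      intro k hk x hx
      have h1 := commutator_mem_commutator hk hx
      exact commutatorElement_eq_one_iff_mul_comm.mp
        (hKR _ (hK₁K h1) (le_centralizer_iff.mp h h1))
    have hMP : M ≤ normalizer (P : Set X) := hMle (fun k hk => by
      rw [mem_normalizer_iff]
      intro x
      constructor
      · intro hx
        rw [hbot k hk x hx, mul_inv_cancel_right]; exact hx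
      · intro hx
        have h2 : k * (k * x * k⁻¹) = k * x * k⁻¹ * k := hbot k hk _ hx
        have h3 : k * x * k⁻¹ = x := by
          have := congrArg (fun z => k⁻¹ * z) h2
          simpa [mul_assoc] using this
        exact h3 ▸ hx) inf_le_right
    haveI : (R ⊔ P).Normal := by
      refine ⟨fun x hx g => ?_⟩
      obtain ⟨r, hr, m, hm, rfl⟩ := hF g
      have h1 : m * x * m⁻¹ ∈ R ⊔ P := by
        have h2 : m ∈ normalizer ((R ⊔ P : Subgroup X) : Set X) := by
          refine Coprime.mem_normalizer_of_conj_smul_eq ?_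
          show (R ⊔ P).map (MulAut.conj m).toMonoidHom = R ⊔ P
          rw [Subgroup.map_sup, show R.map (MulAut.conj m).toMonoidHom = R from
              Coprime.conj_smul_of_normal R m,
            show P.map (MulAut.conj m).toMonoidHom = P from Coprime.conj_smul_eq_self (hMP hm)]
        exact (mem_normalizer_iff.mp h2 x).mp hx
      have h3 : r ∈ R ⊔ P := mem_sup_left hr
      have := mul_mem (mul_mem h3 h1) (inv_mem h3)
      simpa [mul_assoc] using this
    refine hPC (le_antisymm (le_inf ?_ hPM) hCP)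
    refine le_sup_right.trans (hR2 (R ⊔ P) inferInstance ?_)
    exact hR.to_sup_of_normal_left hPp
  -- `Q`, minimal with `[Q, K₁] ≠ 1`
  obtain ⟨Q, ⟨hQR, hQn, hQK⟩, hQmin⟩ :=
    (Set.toFinite {Q : Subgroup X | Q ≤ R ∧ M ≤ normalizer (Q : Set X) ∧
      ¬ Q ≤ centralizer (K₁ : Set X)}).exists_minimal
      ⟨R, le_rfl, by rw [normalizer_eq_top]; exact le_top, hRK₁⟩
  have hQp : IsPGroup 2 Q := hR.to_le hQR
  haveI hQnil : Group.IsNilpotent Q := hQp.isNilpotent
  have hmin : ∀ D : Subgroup X, D ≤ Q → D ≠ Q → M ≤ normalizer (D : Set X) →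
      D ≤ centralizer (K₁ : Set X) := by
    intro D hDQ hne hMD
    by_contra h
    exact hne (le_antisymm hDQ (hQmin ⟨hDQ.trans hQR, hMD, h⟩ hDQ))
  have hK₁Q : K₁ ≤ normalizer (Q : Set X) := (hK₁K.trans hKM).trans hQn
  have hcop1 : (Nat.card K₁).Coprime (Nat.card Q) := (hcopK hQp).coprime_dvd_left (card_dvd_of_le hK₁K)
  have hQK₁ : ⁅Q, K₁⁆ = Q := by
    by_contra hne
    have hMn : M ≤ normalizer ((⁅Q, K₁⁆ : Subgroup X) : Set X) := fun m hm => by
      refine Coprime.mem_normalizer_of_conj_smul_eq ?_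
      show (⁅Q, K₁⁆).map (MulAut.conj m).toMonoidHom = _
      rw [map_commutator, show Q.map (MulAut.conj m).toMonoidHom = Q from Coprime.conj_smul_eq_self (hQn hm),
        show K₁.map (MulAut.conj m).toMonoidHom = K₁ from Coprime.conj_smul_eq_self (hK₁n hm)]
    have h1 := hmin _ (Coprime.commutator_le_of_le_normalizer' hK₁Q) hne hMn
    have h2 := Coprime.commutator_commutator hK₁Q hcop1 (Or.inr inferInstance)
    rw [commutator_eq_bot_iff_le_centralizer.mpr h1] at h2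
    exact hQK (commutator_eq_bot_iff_le_centralizer.mp h2.symm)
  -- squares in `Q` are central and fixed by `K₁`
  have hsqK : ∀ x ∈ Q, ∀ k ∈ K₁, k * (x * x) = (x * x) * k := by
    haveI : Nontrivial Q := (nontrivial_iff_ne_bot Q).mpr fun h => hQK (by rw [h]; exact bot_le)
    let F : Subgroup X := (frattini Q).map Q.subtype
    have hFn : M ≤ normalizer (F : Set X) := by
      have key : ∀ g ∈ M, ∀ x ∈ F, g * x * g⁻¹ ∈ F := by
        rintro g hg _ ⟨y, hy, rfl⟩
        exact ⟨Q.normalizerMonoidHom ⟨g, hQn hg⟩ y,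
          characteristic_iff_le_comap.mp frattini_characteristic _ hy, rfl⟩
      intro g hg
      rw [mem_normalizer_iff]
      refine fun x => ⟨key g hg x, fun hx => ?_⟩
      simpa [mul_assoc] using key g⁻¹ (inv_mem hg) _ hx
    have hFne : F ≠ Q := by
      intro h
      have h1 : frattini Q = ⊤ := by
        refine Subgroup.map_injective Q.subtype_injective ?_
        rw [← MonoidHom.range_eq_map, range_subtype]
        exact h
      have h2 : (⊥ : Subgroup Q) = ⊤ := frattini_nongenerating (by rw [h1, bot_sup_eq])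
      exact bot_ne_top h2
    intro x hx k hk
    have h1 := hmin F (map_subtype_le _) hFne hFn
    refine mem_centralizer_iff.mp (h1 ⟨(⟨x, hx⟩ : Q) ^ 2, ?_, by simp [pow_two]⟩) k hk
    exact Lib.PGroupFrattini.pow_mem_frattini hQp _
  have hsqQ : ∀ x ∈ Q, ∀ y ∈ Q, y * (x * x) = (x * x) * y := by
    intro x hx
    have hle : Q ≤ centralizer ({x * x} : Set X) := by
      conv_lhs => rw [← hQK₁]
      rw [commutator_le]
      intro q hq k hk
      rw [mem_centralizer_singleton_iff]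
      have hkq : k * q⁻¹ * k⁻¹ ∈ Q := (mem_normalizer_iff.mp (hK₁Q hk) _).mp (Q.inv_mem hq)
      have h1 := hsqK (q⁻¹ * x * q) (mul_mem (mul_mem (Q.inv_mem hq) hx) hq) k hk
      have h3 := hsqK x hx k hk
      calc ⁅q, k⁆ * (x * x) = q * k * q⁻¹ * (k⁻¹ * (x * x)) := by rw [commutatorElement_def]; group
        _ = q * k * q⁻¹ * (x * x) * k⁻¹ := by
            rw [show k⁻¹ * (x * x) = (x * x) * k⁻¹ from (Commute.inv_left h3).eq]; group
        _ = q * (k * ((q⁻¹ * x * q) * (q⁻¹ * x * q))) * q⁻¹ * k⁻¹ := by group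
        _ = q * ((q⁻¹ * x * q) * (q⁻¹ * x * q) * k) * q⁻¹ * k⁻¹ := by rw [h1]
        _ = (x * x) * ⁅q, k⁆ := by rw [commutatorElement_def]; group
    exact fun y hy => (mem_centralizer_singleton_iff.mp (hle hy))
  have hid : ∀ x y : X, ⁅y, x⁆ = y * y * ((y⁻¹ * x) * (y⁻¹ * x)) * (x⁻¹ * x⁻¹) := fun x y => by
    rw [commutatorElement_def]; group
  have hcomQ : ∀ x ∈ Q, ∀ y ∈ Q, ∀ z ∈ Q, z * ⁅y, x⁆ = ⁅y, x⁆ * z := by
    intro x hx y hy z hz
    rw [hid]
    exact ((Commute.mul_right (hsqQ y hy z hz) (hsqQ _ (mul_mem (Q.inv_mem hy) hx) z hz)).mul_right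
      (hsqQ _ (Q.inv_mem hx) z hz)).eq
  have hprod : ∀ x ∈ Q, ∀ y ∈ Q, x * y * (x * y) = ⁅y, x⁆ * ((x * x) * (y * y)) := by
    intro x hx y hy
    calc x * y * (x * y) = x * (⁅y, x⁆ * (x * y)) * y := by rw [commutatorElement_def]; group
      _ = x * ⁅y, x⁆ * x * (y * y) := by group
      _ = ⁅y, x⁆ * ((x * x) * (y * y)) := by rw [hcomQ x hx y hy x hx]; group
  have hcomsq : ∀ x ∈ Q, ∀ y ∈ Q, ⁅y, x⁆ * ⁅y, x⁆ = 1 := by
    intro x hx y hy
    calc ⁅y, x⁆ * ⁅y, x⁆ = ⁅y, x⁆ * y * x * y⁻¹ * x⁻¹ := by rw [commutatorElement_def]; group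
      _ = y * ⁅y, x⁆ * x * y⁻¹ * x⁻¹ := by rw [hcomQ x hx y hy y hy]
      _ = y * y * x * (y * y)⁻¹ * x⁻¹ := by rw [commutatorElement_def]; group
      _ = 1 := by rw [mul_assoc (y * y) x, (Commute.inv_right (hsqQ y hy x hx)).eq]; group
  have hsqE : ∀ x ∈ Q, x * x ∈ E := by
    let θ : Q →* X :=
      { toFun := fun x => (x : X) * x * (x * x)
        map_one' := by simp
        map_mul' := fun a b => by
          show (a : X) * b * (a * b) * (a * b * (a * b)) = _
          rw [hprod a a.2 b b.2]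
          have c1 : Commute ((a : X) * a * (b * b)) (⁅(b : X), (a : X)⁆) :=
            hcomQ a a.2 b b.2 _ (mul_mem (mul_mem a.2 a.2) (mul_mem b.2 b.2))
          have c2 : ((b : X) * b) * (a * a) = a * a * (b * b) := hsqQ a a.2 _ (mul_mem b.2 b.2)
          calc ⁅(b : X), (a : X)⁆ * ((a : X) * a * (b * b)) * (⁅(b : X), (a : X)⁆ * ((a : X) * a * (b * b)))
              = ⁅(b : X), (a : X)⁆ * (((a : X) * a * (b * b)) * ⁅(b : X), (a : X)⁆) * ((a : X) * a * (b * b)) := by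
                group
            _ = ⁅(b : X), (a : X)⁆ * ⁅(b : X), (a : X)⁆ * (((a : X) * a * (b * b)) * ((a : X) * a * (b * b))) := by
                rw [c1.eq]; group
            _ = (a : X) * a * (((b : X) * b) * (a * a)) * (b * b) := by rw [hcomsq a a.2 b b.2]; group
            _ = _ := by rw [c2]; group }
    have hker : ∀ x : Q, θ x = 1 := by
      intro x
      have hle : Q ≤ θ.ker.map Q.subtype := by
        conv_lhs => rw [← hQK₁]
        rw [commutator_le]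
        intro q hq k hk
        have hkq : k * q⁻¹ * k⁻¹ ∈ Q := (mem_normalizer_iff.mp (hK₁Q hk) _).mp (Q.inv_mem hq)
        refine ⟨⟨q, hq⟩ * ⟨k * q⁻¹ * k⁻¹, hkq⟩, ?_, by simp [commutatorElement_def, mul_assoc]⟩
        rw [SetLike.mem_coe, MonoidHom.mem_ker, map_mul]
        show (q * q * (q * q)) * (k * q⁻¹ * k⁻¹ * (k * q⁻¹ * k⁻¹) * (k * q⁻¹ * k⁻¹ * (k * q⁻¹ * k⁻¹))) = 1
        have h2 := (hsqK q hq k hk)
        calc _ = (q * q) * (q * q) * (k * ((q * q)⁻¹ * (q * q)⁻¹) * k⁻¹) := by group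
          _ = (q * q) * (q * q) * ((q * q)⁻¹ * (q * q)⁻¹) := by
              rw [((Commute.inv_right (show Commute k (q * q) from h2)).mul_right
                (Commute.inv_right (show Commute k (q * q) from h2))).eq]
              group
          _ = 1 := by group
      obtain ⟨x', hx', he⟩ := hle x.2
      rw [← Subtype.ext he]
      exact hx'
    intro x hx
    exact hker ⟨x, hx⟩
  -- the quotient `V = Q/(Q ∩ E)` and the squaring map `q`
  haveI : (E.subgroupOf Q).Normal := hEn.subgroupOf Q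
  have hVsq : ∀ v : Q ⧸ E.subgroupOf Q, v * v = 1 := by
    intro v
    obtain ⟨x, rfl⟩ := QuotientGroup.mk'_surjective _ v
    rw [← map_mul]
    exact (QuotientGroup.eq_one_iff (x * x)).mpr (hsqE x x.2)
  letI : CommGroup (Q ⧸ E.subgroupOf Q) :=
    { (inferInstance : Group (Q ⧸ E.subgroupOf Q)) with
      mul_comm := fun a b => by
        rw [← inv_eq_self' hVsq (a * b), mul_inv_rev, inv_eq_self' hVsq, inv_eq_self' hVsq] }
  have hEsq : ∀ e : E, e * e = 1 := fun e => Subtype.ext e.2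
  letI : CommGroup E :=
    { (inferInstance : Group E) with
      mul_comm := fun a b => by
        rw [← inv_eq_self' hEsq (a * b), mul_inv_rev, inv_eq_self' hEsq, inv_eq_self' hEsq] }
  have hQE : ∀ x ∈ Q, ∀ e ∈ E, e * x = x * e := fun x hx e he =>
    ((hinvR e he).2.1 x (hQR hx)).symm
  let q : Q ⧸ E.subgroupOf Q → E := Quotient.lift (fun x : Q => (⟨(x : X) * x, hsqE x x.2⟩ : E)) (by
    intro a b hab
    have h : a⁻¹ * b ∈ E.subgroupOf Q := QuotientGroup.leftRel_apply.mp hab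
    rw [mem_subgroupOf] at h
    apply Subtype.ext
    show (a : X) * a = b * b
    have h1 : ((a⁻¹ * b : Q) : X) * ((a⁻¹ * b : Q) : X) = 1 := h
    have h2 := hQE a a.2 _ h
    have hb : (b : X) = a * ((a⁻¹ * b : Q) : X) := by simp
    rw [hb]
    calc (a : X) * a = a * a * (((a⁻¹ * b : Q) : X) * ((a⁻¹ * b : Q) : X)) := by rw [h1, mul_one]
      _ = a * (a * ((a⁻¹ * b : Q) : X)) * ((a⁻¹ * b : Q) : X) := by group
      _ = a * (((a⁻¹ * b : Q) : X) * a) * ((a⁻¹ * b : Q) : X) := by rw [h2]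
      _ = _ := by group)
  have hqmk : ∀ x : Q, (q (QuotientGroup.mk' _ x) : X) = x * x := fun x => rfl
  have hq : ∀ v, q v = 1 → v = 1 := by
    intro v hv
    obtain ⟨x, rfl⟩ := QuotientGroup.mk'_surjective _ v
    refine (QuotientGroup.eq_one_iff x).mpr ?_
    rw [mem_subgroupOf]
    exact (congrArg Subtype.val hv : (x : X) * x = 1)
  have hpolar : ∀ x y : Q, ((polar q (QuotientGroup.mk' _ x) (QuotientGroup.mk' _ y) : E) : X) =
      ⁅(y : X), (x : X)⁆ := by
    intro x y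
    rw [polar, ← map_mul, Subgroup.coe_mul, Subgroup.coe_mul, hqmk, hqmk, hqmk, Subgroup.coe_mul,
      hprod x x.2 y y.2, mul_assoc]
    have h1 : ((x : X) * x * (y * y)) * ((x : X) * x * (y * y)) = 1 :=
      (mul_mem (hsqE x x.2) (hsqE y y.2) : (x : X) * x * (y * y) ∈ E)
    rw [h1, mul_one]
  have hb : ∀ u v w, polar q (u * v) w = polar q u w * polar q v w := by
    intro u v w
    obtain ⟨x, rfl⟩ := QuotientGroup.mk'_surjective _ u
    obtain ⟨y, rfl⟩ := QuotientGroup.mk'_surjective _ v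
    obtain ⟨z, rfl⟩ := QuotientGroup.mk'_surjective _ w
    apply Subtype.ext
    rw [← map_mul, Subgroup.coe_mul (E), hpolar, hpolar, hpolar, Subgroup.coe_mul]
    calc ⁅(z : X), (x : X) * y⁆ = ⁅(z : X), (x : X)⁆ * ((x : X) * ⁅(z : X), (y : X)⁆) * (x : X)⁻¹ := by
          simp only [commutatorElement_def]; group
      _ = ⁅(z : X), (x : X)⁆ * ⁅(z : X), (y : X)⁆ := by rw [hcomQ y y.2 z z.2 x x.2]; group
  -- the action of `M`
  let fQ : M →* MulAut Q := Q.normalizerMonoidHom.comp (inclusion hQn)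
  have hfQ : ∀ (m : M) (x : Q), (fQ m x : X) = m * x * (m : X)⁻¹ := fun m x => rfl
  have hfmap : ∀ m : M, (E.subgroupOf Q).map (fQ m).toMonoidHom = E.subgroupOf Q := by
    intro m
    refine le_antisymm ?_ fun x hx => ⟨fQ m⁻¹ x, ?_, ?_⟩
    · rintro _ ⟨x, hx, rfl⟩
      rw [mem_subgroupOf]
      exact hEn.conj_mem _ (mem_subgroupOf.mp hx) m
    · rw [SetLike.mem_coe, mem_subgroupOf]
      exact hEn.conj_mem _ (mem_subgroupOf.mp hx) (m⁻¹ : M)
    · show fQ m (fQ m⁻¹ x) = x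
      rw [← MulAut.mul_apply, ← map_mul, mul_inv_cancel, map_one, MulAut.one_apply]
  let fV : M →* MulAut (Q ⧸ E.subgroupOf Q) :=
    { toFun := fun m => QuotientGroup.congr (E.subgroupOf Q) (E.subgroupOf Q) (fQ m) (hfmap m)
      map_one' := by
        ext v
        obtain ⟨x, rfl⟩ := QuotientGroup.mk'_surjective _ v
        show QuotientGroup.mk' _ (fQ 1 x) = QuotientGroup.mk' _ x
        rw [map_one, MulAut.one_apply]
      map_mul' := fun a b => by
        ext v
        obtain ⟨x, rfl⟩ := QuotientGroup.mk'_surjective _ v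
        show QuotientGroup.mk' _ (fQ (a * b) x) = QuotientGroup.mk' _ (fQ a (fQ b x))
        rw [map_mul, MulAut.mul_apply] }
  let fE : M →* MulAut E := E.normalizerMonoidHom.comp (inclusion (by rw [normalizer_eq_top]; exact le_top))
  have hfE : ∀ (m : M) (e : E), (fE m e : X) = m * e * (m : X)⁻¹ := fun m e => rfl
  let f : M →* MulAut (Q ⧸ E.subgroupOf Q) × MulAut E := fV.prod fE
  have hfV : ∀ (m : M) (x : Q), (f m).1 (QuotientGroup.mk' _ x) = QuotientGroup.mk' _ (fQ m x) :=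
    fun m x => rfl
  have hequiv : ∀ (m : M) v, q ((f m).1 v) = (f m).2 (q v) := by
    intro m v
    obtain ⟨x, rfl⟩ := QuotientGroup.mk'_surjective _ v
    apply Subtype.ext
    rw [hfV, hqmk, hfQ]
    show _ = (m : X) * ((x : X) * x) * (m : X)⁻¹
    group
  have hK₁fix : ∀ {e : X}, e ∈ E → ∀ k ∈ K₁, k * e * k⁻¹ = e := fun he k hk => by
    rw [hKC1 he (hK₁K hk), mul_inv_cancel_right]
  -- `K₁` has no fixed points on `V`
  set S₁ := (K₁.subgroupOf M).map f with hS₁
  have hoddS : ∀ {L : Subgroup X}, L ≤ K → L ≤ M → Odd (Nat.card ((L.subgroupOf M).map f)) := fun {L} hL hLM =>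
    Odd.of_dvd_nat hK ((card_map_dvd _ f).trans (by
      rw [Coprime.card_subgroupOf hLM]; exact card_dvd_of_le hL))
  have hmoved : ∀ v, v ∈ moved S₁ := by
    intro v
    obtain ⟨x, rfl⟩ := QuotientGroup.mk'_surjective _ v
    suffices h : Q ≤ ((moved S₁).comap (QuotientGroup.mk' (E.subgroupOf Q))).map Q.subtype by
      obtain ⟨x', hx', he⟩ := h x.2
      rw [← Subtype.ext he]
      exact hx'
    conv_lhs => rw [← hQK₁]
    rw [commutator_le]
    intro a ha k hk
    have hka : k * a⁻¹ * k⁻¹ ∈ Q := (mem_normalizer_iff.mp (hK₁Q hk) _).mp (Q.inv_mem ha)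
    refine ⟨⟨a, ha⟩ * ⟨k * a⁻¹ * k⁻¹, hka⟩, ?_, by simp [commutatorElement_def, mul_assoc]⟩
    rw [SetLike.mem_coe, mem_comap, map_mul]
    have h1 := diff_mem_moved (S := S₁) (mem_map_of_mem f (mem_subgroupOf.mpr hk : (⟨k, hK₁K.trans hKM hk⟩ : M) ∈ K₁.subgroupOf M))
      (QuotientGroup.mk' _ (⟨a, ha⟩ : Q)⁻¹)
    have e1 : QuotientGroup.mk' (E.subgroupOf Q) (⟨a, ha⟩ : Q)⁻¹ = QuotientGroup.mk' _ (⟨a, ha⟩ : Q) := by
      rw [map_inv, inv_eq_self' hVsq]
    rw [hfV, mul_comm] at h1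
    nth_rewrite 1 [e1] at h1
    convert h1 using 3
    exact Subtype.ext (hfQ ⟨k, hK₁K.trans hKM hk⟩ (⟨a, ha⟩ : Q)⁻¹).symm
  have hVfix : ∀ v, (∀ k ∈ K₁, ∀ hk : k ∈ M, (f ⟨k, hk⟩).1 v = v) → v = 1 := by
    intro v hv
    refine eq_one_of_moved_of_fixed hVsq (hoddS hK₁K (hK₁K.trans hKM)) (hmoved v) ?_
    rintro _ ⟨⟨k, hkM⟩, hk, rfl⟩
    exact hv k (mem_subgroupOf.mp hk) hkM
  -- `C = E`
  have hCV : ∀ c ∈ C, ∀ hc : c ∈ M, ∀ v, (f ⟨c, hc⟩).1 v = v := by
    let Cf := (C.subgroupOf M).map f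
    have hCM : C ≤ M := inf_le_right
    let D : Subgroup X :=
      { carrier := {x | x ∈ Q ∧ ∀ c ∈ C, x⁻¹ * (c * x * c⁻¹) ∈ E}
        one_mem' := ⟨one_mem _, fun c _ => by
          rw [inv_one, mul_one, one_mul, mul_inv_cancel]; exact one_mem _⟩
        mul_mem' := fun {x y} hx hy => ⟨mul_mem hx.1 hy.1, fun c hc => by
          have h := mul_mem (hEn.conj_mem _ (hx.2 c hc) y⁻¹) (hy.2 c hc)
          have e : y⁻¹ * (x⁻¹ * (c * x * c⁻¹)) * y⁻¹⁻¹ * (y⁻¹ * (c * y * c⁻¹)) =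
              (x * y)⁻¹ * (c * (x * y) * c⁻¹) := by group
          rwa [e] at h⟩
        inv_mem' := fun {x} hx => ⟨inv_mem hx.1, fun c hc => by
          have h := hEn.conj_mem _ (inv_mem (hx.2 c hc)) x
          have e : x * (x⁻¹ * (c * x * c⁻¹))⁻¹ * x⁻¹ = x⁻¹⁻¹ * (c * x⁻¹ * c⁻¹) := by group
          rwa [e] at h⟩ }
    have hDn : M ≤ normalizer (D : Set X) := by
      have key : ∀ m ∈ M, ∀ x ∈ D, m * x * m⁻¹ ∈ D := by
        intro m hm x hx
        refine ⟨(mem_normalizer_iff.mp (hQn hm) x).mp hx.1, fun c hc => ?_⟩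
        have hc' : m⁻¹ * c * m ∈ C := by
          have := (mem_normalizer_iff.mp (hCn (inv_mem hm)) c).mp hc
          simpa using this
        have h := hEn.conj_mem _ (hx.2 _ hc') m
        have e : m * (x⁻¹ * (m⁻¹ * c * m * x * (m⁻¹ * c * m)⁻¹)) * m⁻¹ =
            (m * x * m⁻¹)⁻¹ * (c * (m * x * m⁻¹) * c⁻¹) := by group
        rwa [e] at h
      intro m hm
      rw [mem_normalizer_iff]
      refine fun x => ⟨key m hm x, fun hx => ?_⟩
      simpa [mul_assoc] using key m⁻¹ (inv_mem hm) _ hx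
    intro c hc hcM v
    obtain ⟨x, rfl⟩ := QuotientGroup.mk'_surjective _ v
    suffices hDQ : D = Q by
      rw [hfV]
      symm
      refine (QuotientGroup.mk'_eq_mk' _).mpr ⟨x⁻¹ * fQ ⟨c, hcM⟩ x, ?_, by group⟩
      rw [mem_subgroupOf]
      exact (hDQ.symm ▸ x.2 : (x : X) ∈ D).2 c hc
    by_contra hne
    have hDK := hmin D (fun x hx => hx.1) hne hDn
    -- fixed points of the 2-group `C` on `V`
    let α : (C.subgroupOf M) →* MulAut (Q ⧸ E.subgroupOf Q) := fV.comp (C.subgroupOf M).subtype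
    letI : MulAction (C.subgroupOf M) (Q ⧸ E.subgroupOf Q) := MulAction.compHom _ α
    have hCp : IsPGroup 2 (C.subgroupOf M) := (hR.to_le inf_le_left).of_equiv (subgroupOfEquivOfLe hCM).symm
    have hVp : IsPGroup 2 (Q ⧸ E.subgroupOf Q) := hQp.to_quotient _
    obtain ⟨j, hj⟩ := IsPGroup.iff_card.mp hVp
    have hj0 : j ≠ 0 := by
      rintro rfl
      rw [pow_zero, ← index_eq_card, index_eq_one, subgroupOf_eq_top] at hj
      exact hQK fun y hy => mem_centralizer_iff.mpr fun k hk => hKC1 (hj hy) (hK₁K hk)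
    obtain ⟨w, hw, hw1⟩ := hCp.exists_fixed_point_of_prime_dvd_card_of_fixed_point _
      (hj ▸ dvd_pow_self 2 hj0) (a := (1 : Q ⧸ E.subgroupOf Q)) (fun g => map_one (α g))
    obtain ⟨y, rfl⟩ := QuotientGroup.mk'_surjective _ w
    have hyD : (y : X) ∈ D := by
      refine ⟨y.2, fun c' hc' => ?_⟩
      have h1 : QuotientGroup.mk' (E.subgroupOf Q) (fQ ⟨c', hCM hc'⟩ y) = QuotientGroup.mk' _ y :=
        hw ⟨⟨c', hCM hc'⟩, hc'⟩
      obtain ⟨z, hz, hzy⟩ := (QuotientGroup.mk'_eq_mk' _).mp h1.symm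
      have h2 : ((y : X))⁻¹ * (c' * y * c'⁻¹) = z := by
        have := congrArg Subtype.val hzy
        rw [hfQ] at this
        show _ = (z : X)
        rw [← this]; simp
      rw [h2]
      exact mem_subgroupOf.mp hz
    refine hw1 (hVfix _ fun k hk hkM => ?_).symm
    rw [hfV]
    congr 1
    apply Subtype.ext
    rw [hfQ]
    show k * (y : X) * k⁻¹ = y
    rw [mem_centralizer_iff.mp (hDK hyD) k hk, mul_inv_cancel_right]
  have hCQ : ∀ c ∈ C, ∀ x ∈ Q, c * x = x * c := by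
    intro c hc
    have hE1 : ∀ x ∈ Q, x⁻¹ * (c * x * c⁻¹) ∈ E := fun x hx => by
      have h1 := hCV c hc hc.2 (QuotientGroup.mk' _ ⟨x, hx⟩)
      rw [hfV] at h1
      obtain ⟨z, hz, hzy⟩ := (QuotientGroup.mk'_eq_mk' _).mp h1.symm
      have h2 : x⁻¹ * (c * x * c⁻¹) = z := by
        have := congrArg Subtype.val hzy
        rw [hfQ] at this
        rw [← this]; simp
      rw [h2]
      exact mem_subgroupOf.mp hz
    let Dc : Subgroup X :=
      { carrier := {x | x ∈ Q ∧ c * x = x * c}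
        one_mem' := ⟨one_mem _, by simp⟩
        mul_mem' := fun {a b} ha hb => ⟨mul_mem ha.1 hb.1, by
          rw [← mul_assoc, ha.2, mul_assoc, hb.2, mul_assoc]⟩
        inv_mem' := fun {a} ha => ⟨inv_mem ha.1, (Commute.inv_right ha.2).eq⟩ }
    have hle : Q ≤ Dc := by
      conv_lhs => rw [← hQK₁]
      rw [commutator_le]
      intro a ha k hk
      have hka : k * a⁻¹ * k⁻¹ ∈ Q := (mem_normalizer_iff.mp (hK₁Q hk) _).mp (Q.inv_mem ha)
      refine ⟨by simpa [commutatorElement_def, mul_assoc] using mul_mem ha hka, ?_⟩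
      have hck := hCK c hc k (hK₁K hk)
      obtain ⟨e, he, hae⟩ : ∃ e ∈ E, c * a * c⁻¹ = a * e := ⟨_, hE1 a ha, by group⟩
      have h2 : c * (k * a⁻¹ * k⁻¹) * c⁻¹ = (k * a⁻¹ * k⁻¹) * e⁻¹ := by
        calc c * (k * a⁻¹ * k⁻¹) * c⁻¹ = (c * k) * a⁻¹ * (c * k)⁻¹ := by group
          _ = (k * c) * a⁻¹ * (k * c)⁻¹ := by rw [hck]
          _ = k * (c * a * c⁻¹)⁻¹ * k⁻¹ := by group
          _ = (k * e⁻¹ * k⁻¹) * (k * a⁻¹ * k⁻¹) := by rw [hae]; group
          _ = e⁻¹ * (k * a⁻¹ * k⁻¹) := by rw [hK₁fix (inv_mem he) k hk]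
          _ = _ := hQE _ hka _ (inv_mem he)
      have h3 : c * ⁅a, k⁆ * c⁻¹ = ⁅a, k⁆ := by
        calc c * ⁅a, k⁆ * c⁻¹ = (c * a * c⁻¹) * (c * (k * a⁻¹ * k⁻¹) * c⁻¹) := by
              rw [commutatorElement_def]; group
          _ = a * (e * (k * a⁻¹ * k⁻¹)) * e⁻¹ := by rw [hae, h2]; group
          _ = _ := by rw [hQE _ hka e he, commutatorElement_def]; group
      exact mul_inv_eq_iff_eq_mul.mp h3
    exact fun x hx => (hle hx).2
  have hCE : ∀ c ∈ C, c * c = 1 := by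
    intro c hc
    by_contra hcc
    obtain ⟨j, hj⟩ := hR ⟨c, hc.1⟩
    have hj' : c ^ 2 ^ j = 1 := congrArg Subtype.val hj
    obtain ⟨i, hi4, hi2⟩ : ∃ i : ℕ, (c ^ 2 ^ i * c ^ 2 ^ i) * (c ^ 2 ^ i * c ^ 2 ^ i) = 1 ∧
        c ^ 2 ^ i * c ^ 2 ^ i ≠ 1 := by
      have hex : ∃ i, c ^ 2 ^ (i + 2) = 1 := ⟨j, by
        rw [pow_add, pow_mul, hj', one_pow]⟩
      obtain ⟨i, hs, hm⟩ : ∃ i, c ^ 2 ^ (i + 2) = 1 ∧ ∀ m < i, ¬ c ^ 2 ^ (m + 2) = 1 :=
        ⟨Nat.find hex, Nat.find_spec hex, fun m hm => Nat.find_min hex hm⟩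
      refine ⟨i, ?_, fun h => ?_⟩
      · rw [← pow_add, ← pow_add, show 2 ^ i + 2 ^ i + (2 ^ i + 2 ^ i) = 2 ^ (i + 2) by ring]
        exact hs
      · rw [← pow_add, show 2 ^ i + 2 ^ i = 2 ^ (i + 1) by ring] at h
        rcases i with _ | i
        · exact hcc (by simpa [pow_two] using h)
        · exact hm i (Nat.lt_succ_self i) h
    set y := c ^ 2 ^ i with hy
    have hyC : y ∈ C := pow_mem hc _
    obtain ⟨z, hz, hz2⟩ : ∃ z ∈ Q, z * z ≠ 1 := by
      by_contra h
      push Not at h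
      exact hQK fun z hz => mem_centralizer_iff.mpr fun k hk => hKC1 (h z hz) (hK₁K hk)
    obtain ⟨n, hn, hnz⟩ := hNtrans (z * z) (y * y) (hsqE z hz) hz2 hi4 hi2
    have ha : n * z * n⁻¹ ∈ Q := (mem_normalizer_iff.mp (hQn hn.1) z).mp hz
    set a := n * z * n⁻¹ with hadef
    have haa : a * a = y * y := by rw [← hnz, hadef]; group
    have hcomm : y * a⁻¹ = a⁻¹ * y := hCQ y hyC _ (inv_mem ha)
    have hsq1 : (a⁻¹ * y) * (a⁻¹ * y) = 1 := by
      calc (a⁻¹ * y) * (a⁻¹ * y) = a⁻¹ * (y * a⁻¹) * y := by group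
        _ = (a * a)⁻¹ * (y * y) := by rw [hcomm]; group
        _ = 1 := by rw [haa, inv_mul_cancel]
    have haC : a ∈ C := by
      have h3 : a = y * (a⁻¹ * y)⁻¹ := by group
      rw [h3]
      exact mul_mem hyC (inv_mem (hEC hsq1))
    have h4 : QuotientGroup.mk' (E.subgroupOf Q) ⟨a, ha⟩ = 1 := by
      refine hVfix _ fun k hk hkM => ?_
      rw [hfV]
      congr 1
      apply Subtype.ext
      rw [hfQ]
      show k * a * k⁻¹ = a
      rw [hCK a haC k (hK₁K hk), mul_inv_cancel_right]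
    have h5 : a * a = 1 := mem_subgroupOf.mp ((QuotientGroup.eq_one_iff _).mp h4)
    exact hi2 (haa ▸ h5)
  -- the kernel of the action of `P` relative to `K`
  let Kf := (K.subgroupOf M).map f
  let A := (P.subgroupOf M).map f
  have hCf : ∀ c : M, (c : X) ∈ C → f c = 1 := by
    intro c hc
    refine Prod.ext (MulEquiv.ext fun v => hCV c hc c.2 v) (MulEquiv.ext fun e => Subtype.ext ?_)
    show (fE c e : X) = e
    rw [hfE, (hinvR _ e.2).2.1 c hc.1, mul_inv_cancel_right]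
  let A₀ : Subgroup X :=
    ((centralizer (Kf : Set (MulAut (Q ⧸ E.subgroupOf Q) × MulAut E))).comap f).map M.subtype ⊓ P
  have hA₀mem : ∀ x : M, (x : X) ∈ A₀ ↔ (x : X) ∈ P ∧ f x ∈ centralizer (Kf : Set _) := by
    intro x
    constructor
    · rintro ⟨⟨x', hx', he⟩, hP⟩
      rw [← Subtype.ext he]
      exact ⟨by rw [show (x' : X) = x from he]; exact hP, hx'⟩
    · exact fun h => ⟨⟨x, h.2, rfl⟩, h.1⟩
  have hconjK : ∀ {m : M}, f m ∈ normalizer (Kf : Set _) := by
    intro m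
    refine le_normalizer_map f ⟨m, ?_, rfl⟩
    rw [SetLike.mem_coe, mem_normalizer_iff]
    intro k
    rw [mem_subgroupOf, mem_subgroupOf]
    exact mem_normalizer_iff.mp m.2 k
  have hA₀N : N ≤ normalizer (A₀ : Set X) := by
    have key : ∀ n ∈ N, ∀ x ∈ A₀, n * x * n⁻¹ ∈ A₀ := by
      intro n hn x hx
      obtain ⟨h1, h2⟩ := (hA₀mem ⟨x, hPM hx.2⟩).mp hx
      refine (hA₀mem (⟨n, hn.1⟩ * ⟨x, hPM hx.2⟩ * ⟨n, hn.1⟩⁻¹)).mpr
        ⟨(mem_normalizer_iff.mp hn.2 x).mp h1, ?_⟩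
      rw [map_mul, map_mul, map_inv]
      exact (mem_normalizer_iff.mp (normalizer_le_normalizer_centralizer' _ hconjK) _).mp h2
    intro n hn
    rw [mem_normalizer_iff]
    refine fun x => ⟨key n hn x, fun h => ?_⟩
    simpa [mul_assoc] using key n⁻¹ (inv_mem hn) _ h
  have hCA₀ : C ≤ A₀ := fun c hc => (hA₀mem ⟨c, hc.2⟩).mpr ⟨hCP hc, by rw [hCf _ hc]; exact one_mem _⟩
  have hA₀ : A₀ = C := by
    refine (hminN A₀ hCA₀ inf_le_right hA₀N).resolve_right fun h => hQK ?_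
    have hf1 : ∀ k ∈ K₁, ∀ hk : k ∈ M, f ⟨k, hk⟩ = 1 := by
      have hle : K₁ ≤ f.ker.map M.subtype := by
        rw [hK₁, commutator_le]
        intro k hk x hx
        refine ⟨⁅(⟨k, hKM hk⟩ : M), (⟨x, hPM hx⟩ : M)⁆, ?_, rfl⟩
        rw [SetLike.mem_coe, MonoidHom.mem_ker, map_commutatorElement, commutatorElement_eq_one_iff_mul_comm]
        exact mem_centralizer_iff.mp ((hA₀mem ⟨x, hPM hx⟩).mp (h.symm ▸ hx)).2 _
          (mem_map_of_mem f (mem_subgroupOf.mpr hk))
      intro k hk hkM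
      obtain ⟨k', hk', he⟩ := hle hk
      rwa [show (⟨k, hkM⟩ : M) = k' from Subtype.ext he.symm]
    intro x hx
    have h1 : QuotientGroup.mk' (E.subgroupOf Q) ⟨x, hx⟩ = 1 := hVfix _ fun k hk hkM => by
      rw [hf1 k hk hkM]; rfl
    exact mem_centralizer_iff.mpr fun k hk =>
      hKC1 (mem_subgroupOf.mp ((QuotientGroup.eq_one_iff _).mp h1)) (hK₁K hk)
  have hA2 : ∀ a ∈ A, a * a = 1 := by
    rintro _ ⟨x, hx, rfl⟩
    rw [← map_mul]
    exact hCf _ (hsqC x hx)
  have hAsnd : ∀ a ∈ A, a.2 = 1 := by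
    rintro _ ⟨x, hx, rfl⟩
    refine MulEquiv.ext fun e => Subtype.ext ?_
    show (fE x e : X) = e
    rw [hfE, hPE e e.2 x hx, mul_inv_cancel_right]
  have hKsnd : ∀ k ∈ Kf, k.2 = 1 := by
    rintro _ ⟨k, hk, rfl⟩
    refine MulEquiv.ext fun e => Subtype.ext ?_
    show (fE k e : X) = e
    rw [hfE, hKC1 e.2 (mem_subgroupOf.mp hk), mul_inv_cancel_right]
  have hNAf : ∀ n ∈ (N.subgroupOf M).map f, n ∈ normalizer (A : Set _) := by
    rintro _ ⟨n, hn, rfl⟩
    refine le_normalizer_map f ⟨n, ?_, rfl⟩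
    rw [SetLike.mem_coe, mem_normalizer_iff]
    intro k
    rw [mem_subgroupOf, mem_subgroupOf]
    exact mem_normalizer_iff.mp hn.2 k
  have hcard : Nat.card A ≤ 2 := by
    by_contra hlarge
    have hAp : IsPGroup 2 A := (hPp.of_equiv (subgroupOfEquivOfLe hPM).symm).map f
    have h4 : 2 ^ 2 ≤ Nat.card A := by
      obtain ⟨i, hi⟩ := IsPGroup.iff_card.mp hAp
      rw [hi]
      refine Nat.pow_le_pow_right (by norm_num) ?_
      by_contra hi2
      refine hlarge ?_
      rw [hi]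
      exact (Nat.pow_le_pow_right (by norm_num) (show i ≤ 1 by omega)).trans_eq (pow_one 2)
    have hAel : IsElementaryAbelian 2 A := by
      refine ⟨⟨⟨fun a b => Subtype.ext ?_⟩⟩, fun a ha => by rw [sq]; exact hA2 a ha⟩
      have h : ∀ x : A, x * x = 1 := fun x => Subtype.ext (hA2 x x.2)
      exact congrArg Subtype.val (show a * b = b * a by
        rw [← inv_eq_self' h (a * b), mul_inv_rev, inv_eq_self' h, inv_eq_self' h])
    have hAK : A ≤ normalizer (Kf : Set _) := by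
      rintro _ ⟨x, -, rfl⟩
      exact hconjK
    have hKodd : Odd (Nat.card Kf) := hoddS le_rfl hKM
    haveI : Finite (MulAut (Q ⧸ E.subgroupOf Q)) :=
      Finite.of_injective (fun g : MulAut (Q ⧸ E.subgroupOf Q) => (g : _ → _)) DFunLike.coe_injective
    haveI : Finite (MulAut E) := Finite.of_injective (fun g : MulAut E => (g : E → E)) DFunLike.coe_injective
    have hgen := Components.Sig.gen_hyperplane (p := 2) hAel h4 (X := Kf) (by
      obtain ⟨i, hi⟩ := IsPGroup.iff_card.mp hAp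
      rw [hi]
      exact Nat.Coprime.pow_left i (Nat.coprime_two_left.mpr hKodd)) hAK
    refine hlarge (card_le_two_of_transitive q hVsq hEsq hb hq A Kf hA2 hAsnd hKsnd ?_ ?_ hKodd hAK
      ((N.subgroupOf M).map f) ?_ hNAf ?_ ?_ ?_ hgen)
    · rintro a ha v
      obtain ⟨x, hx, rfl⟩ := ha
      rw [hequiv, hAsnd _ ⟨x, hx, rfl⟩]; rfl
    · rintro a ha v
      obtain ⟨x, hx, rfl⟩ := ha
      rw [hequiv, hKsnd _ ⟨x, hx, rfl⟩]; rfl
    · rintro _ ⟨n, -, rfl⟩ v
      exact hequiv n v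
    · rintro _ ⟨n, -, rfl⟩
      exact hconjK
    · intro x y hx hy
      obtain ⟨n, hn, he⟩ := hNtrans (x : X) y x.2 (fun h => hx (Subtype.ext h)) y.2
        (fun h => hy (Subtype.ext h))
      exact ⟨f ⟨n, hn.1⟩, ⟨_, mem_subgroupOf.mpr hn, rfl⟩, Subtype.ext he⟩
    · rintro a ⟨x, hx, rfl⟩ h
      refine hCf x ?_
      rw [← hA₀]
      exact (hA₀mem x).mpr ⟨hx, mem_centralizer_iff.mpr fun k hk => (h k hk).symm⟩
  -- `|P/C| = 2`, so a square is fixed by `N`
  obtain ⟨x, hxP, hxC⟩ : ∃ x ∈ P, x ∉ C := by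
    by_contra h
    push Not at h
    exact hPC (le_antisymm (fun x hx => h x hx) hCP)
  have hx2C : x * x ∈ C := hsqC x hxP
  have hxx : x * x * (x * x) = 1 := hCE _ hx2C
  have hx21 : x * x ≠ 1 := fun h => hxC (hEC h)
  obtain ⟨y, hy, hy1, hyne⟩ := hthree (x * x)
  obtain ⟨n, hn, hne⟩ := hNtrans (x * x) y hxx hx21 hy hy1
  have hnx : n * x * n⁻¹ ∈ P := (mem_normalizer_iff.mp hn.2 x).mp hxP
  have hnxC : n * x * n⁻¹ ∉ C := fun h => hxC ((mem_normalizer_iff.mp (hCn hn.1) x).mpr h)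
  have hker : ∀ w : M, (w : X) ∈ P → f w = 1 → (w : X) ∈ C := fun w hw h => by
    rw [← hA₀]
    exact (hA₀mem w).mpr ⟨hw, by rw [h]; exact one_mem _⟩
  have hmemC : x⁻¹ * (n * x * n⁻¹) ∈ C := by
    obtain ⟨u, hu⟩ : ∃ u : M, (u : X) = x := ⟨⟨x, hPM hxP⟩, rfl⟩
    obtain ⟨v, hv⟩ : ∃ v : M, (v : X) = n * x * n⁻¹ := ⟨⟨n * x * n⁻¹, hPM hnx⟩, rfl⟩
    have huA : f u ∈ A := mem_map_of_mem f (mem_subgroupOf.mpr (hu ▸ hxP))
    have hvA : f v ∈ A := mem_map_of_mem f (mem_subgroupOf.mpr (hv ▸ hnx))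
    haveI : Finite A := Finite.of_surjective
      (fun z : (P.subgroupOf M) => (⟨f z.1, mem_map_of_mem f z.2⟩ : A))
      (by rintro ⟨_, z, hz, rfl⟩; exact ⟨⟨z, hz⟩, rfl⟩)
    have h1 : (⟨f u, huA⟩ : A) ≠ 1 := fun h =>
      hxC (hu ▸ hker u (hu ▸ hxP) (congrArg Subtype.val h))
    have h2 : (⟨f v, hvA⟩ : A) ≠ 1 := fun h =>
      hnxC (hv ▸ hker v (hv ▸ hnx) (congrArg Subtype.val h))
    haveI : Nontrivial A := nontrivial_of_ne _ _ h1
    have hA_two : Nat.card A = 2 := le_antisymm hcard Finite.one_lt_card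
    obtain ⟨w, -, hw⟩ := (Nat.card_eq_two_iff' (1 : A)).mp hA_two
    have heq : f u = f v := congrArg Subtype.val ((hw _ h1).trans (hw _ h2).symm)
    rw [← hv, ← hu]
    exact hker (u⁻¹ * v) (mul_mem (P.inv_mem (hu ▸ hxP)) (hv ▸ hnx))
      (by rw [map_mul, map_inv, heq, inv_mul_cancel])
  set e := x⁻¹ * (n * x * n⁻¹) with he
  refine hyne ?_
  calc y = n * (x * x) * n⁻¹ := hne.symm
    _ = (x * e) * (x * e) := by rw [he]; group
    _ = x * (e * x) * e := by group
    _ = x * (x * e) * e := by rw [hPE e (hCE e hmemC) x hxP]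
    _ = x * x * (e * e) := by group
    _ = x * x := by rw [hCE e hmemC, mul_one]

end Cfsg.Agent.Lib.LocalChar.InvolOneClass
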