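import Cfsg.Agent.Lib.LocalChar.InvolOneClass.Core
import Cfsg.Agent.Lib.PLength.Basic
import Cfsg.Agent.Lib.LocalFusion.PSolvable
import Cfsg.Agent.Lib.OddLocal.PLengthOne
import Cfsg.Agent.Lib.HallHigman.Solvable
import Mathlib

/-!
Solvable groups with a single class of involutions and 2-rank at least two have 2-length one.
-/

set_option autoImplicit false
set_option linter.style.haveILetI false

namespace Cfsg.Agent.Lib.LocalChar.InvolOneClass

open Subgroup
open scoped Pointwise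

variable {X : Type*} [Group X] [Finite X]

theorem exists_involution_center {R : Subgroup X} (hR : IsPGroup 2 R) (hne : R ≠ ⊥) :
    ∃ z : X, z ∈ R ∧ z * z = 1 ∧ z ≠ 1 ∧ ∀ r ∈ R, r * z = z * r := by
  haveI : Fact (Nat.Prime 2) := ⟨Nat.prime_two⟩
  haveI : Nontrivial R := (nontrivial_iff_ne_bot _).mpr hne
  haveI := hR.center_nontrivial
  obtain ⟨z, hz⟩ : ∃ z : center R, orderOf z = 2 := by
    apply exists_prime_orderOf_dvd_card'
    obtain ⟨k, hk⟩ := IsPGroup.iff_card.mp (hR.to_subgroup (center R))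
    have h1 : k ≠ 0 := by
      rintro rfl
      exact absurd hk (by rw [pow_zero]; exact Finite.one_lt_card.ne')
    rw [hk]
    exact dvd_pow_self 2 h1
  refine ⟨((z : R) : X), (z : R).2, ?_, ?_, fun r hr => congrArg Subtype.val (mem_center_iff.mp z.2 ⟨r, hr⟩)⟩
  · rw [← Subgroup.coe_mul, ← Subgroup.coe_mul, ← sq, ← hz, pow_orderOf_eq_one]; rfl
  · intro h
    rw [← Subgroup.orderOf_coe, ← Subgroup.orderOf_coe, h, orderOf_one] at hz
    norm_num at hz

/-- The core statement, with trivial odd core. -/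
theorem two_not_dvd_index_pCore (hsolv : Group.IsSolvable X) (hred : Cfsg.pPrimeCore 2 X = ⊥)
    (htrans : ∀ x y : X, x * x = 1 → x ≠ 1 → y * y = 1 → y ≠ 1 → ∃ g : X, g * x * g⁻¹ = y)
    (hthree : ∀ x : X, ∃ y : X, y * y = 1 ∧ y ≠ 1 ∧ y ≠ x) :
    ¬ 2 ∣ (Cfsg.pCore 2 X).index ∧
      ∀ x : X, x * x = 1 → x ∈ Cfsg.pCore 2 X ∧ ∀ r ∈ Cfsg.pCore 2 X, r * x = x * r := by
  classical
  haveI : Fact (Nat.Prime 2) := ⟨Nat.prime_two⟩
  have hS : Cfsg.IsPSolvable 2 X := HallHigman.isPSolvable_of_isSolvable 2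
  set R := Cfsg.pCore 2 X with hRdef
  haveI : R.Normal := Lib.Hall.pCore_normal 2
  have hRp : IsPGroup 2 R := Lib.Hall.isPGroup_pCore 2
  have hCR := Lib.LocalFusion.centralizer_pCore_le_of_isPSolvable hS hred
  have hRne : R ≠ ⊥ := by
    intro h
    obtain ⟨y, -, hy1, -⟩ := hthree 1
    refine hy1 ?_
    have h1 : y ∈ centralizer (R : Set X) := by
      rw [h, mem_centralizer_iff]
      intro z hz
      rw [SetLike.mem_coe, mem_bot] at hz
      simp [hz]
    have h2 := hCR h1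
    rwa [← hRdef, h, mem_bot] at h2
  obtain ⟨z0, hz0R, hz0, hz01, hz0c⟩ := exists_involution_center hRp hRne
  have hE : ∀ x : X, x * x = 1 → x ∈ R ∧ ∀ r ∈ R, r * x = x * r := by
    intro x hx
    by_cases hx1 : x = 1
    · subst hx1; simp
    obtain ⟨g, rfl⟩ := htrans z0 x hz0 hz01 hx hx1
    refine ⟨‹R.Normal›.conj_mem z0 hz0R g, fun r hr => ?_⟩
    have h1 := hz0c _ (show g⁻¹ * r * g ∈ R by simpa using ‹R.Normal›.conj_mem r hr g⁻¹)
    simpa [mul_assoc] using conj_commute (g := g) h1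
  refine ⟨fun hdv => ?_, hE⟩
  set L := (Cfsg.pPrimeCore 2 (X ⧸ R)).comap (QuotientGroup.mk' R) with hL
  haveI : L.Normal := (Lib.Hall.pPrimeCore_normal 2).comap _
  have hRL : R ≤ L := fun x hx => by
    rw [hL, mem_comap, show QuotientGroup.mk' R x = 1 from (QuotientGroup.eq_one_iff x).mpr hx]
    exact one_mem _
  obtain ⟨j, hj⟩ := IsPGroup.iff_card.mp hRp
  have hcardL : Nat.card L = Nat.card (Cfsg.pPrimeCore 2 (X ⧸ R)) * Nat.card R := by
    have h := Lib.Coprime.card_map_mk' R L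
    rw [hL, map_comap_eq_self_of_surjective (QuotientGroup.mk'_surjective R), inf_eq_right.mpr hRL] at h
    exact h.symm
  have hidx : (R.subgroupOf L).index = Nat.card (Cfsg.pPrimeCore 2 (X ⧸ R)) := by
    have h := (R.subgroupOf L).index_mul_card
    rw [Lib.Coprime.card_subgroupOf hRL, hcardL] at h
    exact Nat.eq_of_mul_eq_mul_right Nat.card_pos h
  have hcop : (Nat.card (Cfsg.pPrimeCore 2 (X ⧸ R))).Coprime (Nat.card R) := by
    rw [hj]
    exact (Lib.Hall.coprime_card_pPrimeCore 2).pow_right j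
  obtain ⟨B, hB⟩ := exists_right_complement'_of_coprime (N := R.subgroupOf L) (by
    rw [hidx, Lib.Coprime.card_subgroupOf hRL]
    exact hcop.symm)
  set K := B.map L.subtype
  have hKcard : Nat.card K = Nat.card (Cfsg.pPrimeCore 2 (X ⧸ R)) := by
    rw [Nat.card_congr (B.equivMapOfInjective _ L.subtype_injective).toEquiv.symm, ← hidx,
      hB.symm.index_eq_card]
  have hKodd : Odd (Nat.card K) := by
    rw [hKcard]
    exact Nat.coprime_two_right.mp (Lib.Hall.coprime_card_pPrimeCore 2)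
  have hKL : K ≤ L := map_subtype_le B
  have hKR : (Nat.card K).Coprime (Nat.card R) := hKcard ▸ hcop
  have hKn : K ≤ normalizer (R : Set X) := by rw [normalizer_eq_top]; exact le_top
  have hKsup : K ⊔ R = L := by
    refine eq_of_le_of_card_ge (sup_le hKL hRL) (le_of_eq ?_)
    rw [Lib.Coprime.card_sup_of_coprime hKn hKR, hKcard, hcardL]
  haveI : Group.IsNilpotent R := hRp.isNilpotent
  set M := normalizer (K : Set X) with hM
  have hF : ∀ g : X, ∃ r ∈ R, ∃ m ∈ M, g = r * m := by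
    intro g
    obtain ⟨r, hr, hrK⟩ := Lib.Coprime.exists_conj_eq_of_le_sup hKn hKR (Or.inr inferInstance)
      (B := MulAut.conj g • K) (by
        rw [hKsup, ← Lib.Coprime.conj_smul_of_normal L g]
        exact Subgroup.pointwise_smul_le_pointwise_smul_iff.mpr hKL) (Lib.Coprime.card_conj_smul g K)
    exact ⟨r, hr, r⁻¹ * g, Lib.Coprime.mem_normalizer_of_conj_smul_eq (by
      rw [Lib.Coprime.conj_smul_mul, ← hrK, Lib.Coprime.conj_inv_smul_smul]), by group⟩
  have hinf : K ⊓ R = ⊥ := Lib.Coprime.inf_eq_bot_of_coprime hKR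
  by_cases hfpf : R ⊓ centralizer (K : Set X) = ⊥
  · -- `N(K)` is a complement to `R`, so it has no involution
    have hdisj : R ⊓ M = ⊥ := by
      rw [eq_bot_iff, ← hfpf]
      refine fun n hn => ⟨hn.1, mem_centralizer_iff.mpr fun k hk => ?_⟩
      have h1 : n * k * n⁻¹ * k⁻¹ ∈ K ⊓ R := by
        refine ⟨K.mul_mem ((mem_normalizer_iff.mp hn.2 k).mp hk) (K.inv_mem hk), ?_⟩
        have := R.mul_mem hn.1 (‹R.Normal›.conj_mem _ (R.inv_mem hn.1) k)
        simpa [mul_assoc] using this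
      rw [hinf, mem_bot, mul_inv_eq_one, mul_inv_eq_iff_eq_mul] at h1
      exact h1.symm
    have htop : R ⊔ M = ⊤ := by
      rw [eq_top_iff]
      intro g _
      obtain ⟨r, hr, m, hm, rfl⟩ := hF g
      exact mul_mem_sup hr hm
    have hcardN : Nat.card M = R.index := by
      have h := Lib.Coprime.card_sup_mul_card_inf R M
      rw [sup_comm, htop, inf_comm, hdisj, card_top, card_bot, mul_one, ← R.index_mul_card] at h
      exact (Nat.eq_of_mul_eq_mul_right Nat.card_pos h).symm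
    obtain ⟨x, hx⟩ := exists_prime_orderOf_dvd_card' (G := M) 2 (hcardN ▸ hdv)
    have hx' : (x : X) * x = 1 := by rw [← Subgroup.coe_mul, ← sq, ← hx, pow_orderOf_eq_one]; rfl
    have h1 : (x : X) ∈ R ⊓ M := ⟨(hE _ hx').1, x.2⟩
    rw [hdisj, mem_bot, OneMemClass.coe_eq_one] at h1
    rw [h1, orderOf_one] at hx
    norm_num at hx
  -- some involution, hence every involution, is fixed by `K`
  have hinvR : ∀ x : X, x * x = 1 → x ∈ R ∧ (∀ r ∈ R, r * x = x * r) ∧ ∀ k ∈ K, k * x = x * k := by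
    obtain ⟨w, hw⟩ : ∃ w : ↥(R ⊓ centralizer (K : Set X) : Subgroup X), orderOf w = 2 := by
      apply exists_prime_orderOf_dvd_card'
      obtain ⟨k, hk⟩ := IsPGroup.iff_card.mp (hRp.to_le (inf_le_left : R ⊓ centralizer (K : Set X) ≤ R))
      have h1 : k ≠ 0 := by
        rintro rfl
        exact hfpf ((card_eq_one).mp (by rw [hk, pow_zero]))
      rw [hk]
      exact dvd_pow_self 2 h1
    have hw1 : (w : X) ≠ 1 := by
      intro h
      rw [← orderOf_coe, h, orderOf_one] at hw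
      norm_num at hw
    have hw2 : (w : X) * w = 1 := by rw [← Subgroup.coe_mul, ← sq, ← hw, pow_orderOf_eq_one]; rfl
    have hwL : L ≤ centralizer ({(w : X)} : Set X) := by
      rw [← hKsup]
      refine sup_le (fun k hk => ?_) (fun r hr => ?_)
      · exact mem_centralizer_singleton_iff.mpr (mem_centralizer_iff.mp w.2.2 k hk)
      · exact mem_centralizer_singleton_iff.mpr ((hE _ hw2).2 r hr)
    intro x hx
    refine ⟨(hE x hx).1, (hE x hx).2, fun k hk => ?_⟩
    by_cases hx1 : x = 1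
    · subst hx1; simp
    obtain ⟨g, rfl⟩ := htrans (w : X) x hw2 hw1 hx hx1
    have h1 : g⁻¹ * k * g ∈ L := by simpa using ‹L.Normal›.conj_mem k (hKL hk) g⁻¹
    simpa [mul_assoc] using conj_commute (g := g) (mem_centralizer_singleton_iff.mp (hwL h1))
  -- a 2-subgroup above `R ⊓ M`
  haveI := Lib.Hall.pCore_normal (G := X ⧸ L) 2
  haveI := Lib.Hall.pPrimeCore_normal (G := X ⧸ L) 2
  set Y := (Cfsg.pCore 2 (X ⧸ L)).comap (QuotientGroup.mk' L) with hY
  haveI : Y.Normal := Subgroup.Normal.comap inferInstance _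
  have hLY : L ≤ Y := fun x hx => by
    rw [hY, mem_comap, show QuotientGroup.mk' L x = 1 from (QuotientGroup.eq_one_iff x).mpr hx]
    exact one_mem _
  have hYne : ¬ Y ≤ L := by
    intro hYL
    have hbot : Cfsg.pCore 2 (X ⧸ L) = ⊥ := by
      rw [eq_bot_iff]
      intro w hw
      obtain ⟨x, rfl⟩ := QuotientGroup.mk'_surjective L w
      exact (QuotientGroup.eq_one_iff x).mpr (hYL hw)
    have hodd : Cfsg.pPrimeCore 2 (X ⧸ L) = ⊥ := by
      set Z := (Cfsg.pPrimeCore 2 (X ⧸ L)).comap (QuotientGroup.mk' L) with hZ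
      haveI : Z.Normal := Subgroup.Normal.comap inferInstance _
      have hLZ : L ≤ Z := fun x hx => by
        rw [hZ, mem_comap, show QuotientGroup.mk' L x = 1 from (QuotientGroup.eq_one_iff x).mpr hx]
        exact one_mem _
      have hcardZ : Nat.card (Cfsg.pPrimeCore 2 (X ⧸ L)) * Nat.card L = Nat.card Z := by
        have h := Lib.Coprime.card_map_mk' L Z
        rw [hZ, map_comap_eq_self_of_surjective (QuotientGroup.mk'_surjective L), inf_eq_right.mpr hLZ] at h
        exact h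
      have hmap := Lib.Coprime.card_map_mk' R Z
      rw [inf_eq_right.mpr (hRL.trans hLZ), ← hcardZ, hcardL, ← mul_assoc] at hmap
      have hmapc := Nat.eq_of_mul_eq_mul_right Nat.card_pos hmap
      haveI : (Z.map (QuotientGroup.mk' R)).Normal :=
        Subgroup.Normal.map ‹Z.Normal› _ (QuotientGroup.mk'_surjective R)
      have hle : Z.map (QuotientGroup.mk' R) ≤ Cfsg.pPrimeCore 2 (X ⧸ R) := Lib.Hall.le_pPrimeCore (by
        rw [hmapc]
        exact Nat.Coprime.mul_left (Lib.Hall.coprime_card_pPrimeCore 2) (Lib.Hall.coprime_card_pPrimeCore 2))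
      rw [eq_bot_iff]
      intro w hw
      obtain ⟨x, rfl⟩ := QuotientGroup.mk'_surjective L w
      exact (QuotientGroup.eq_one_iff x).mpr (map_le_iff_le_comap.mp hle hw)
    have hC := Lib.LocalFusion.centralizer_pCore_le_of_isPSolvable
      (Lib.PLength.isPSolvable_map (QuotientGroup.mk'_surjective L) hS) hodd
    rw [hbot] at hC
    have htop : (⊤ : Subgroup (X ⧸ L)) ≤ ⊥ := le_trans (fun x _ => mem_centralizer_iff.mpr fun y hy => by
      rw [SetLike.mem_coe, mem_bot] at hy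
      simp [hy]) hC
    have hLtop : L = ⊤ := by
      rw [eq_top_iff]
      intro x _
      exact (QuotientGroup.eq_one_iff x).mp (htop (mem_top _))
    have hidx2 : R.index = Nat.card (Cfsg.pPrimeCore 2 (X ⧸ R)) := by
      have h := R.index_mul_card
      rw [← card_top (G := X), ← hLtop, hcardL] at h
      exact Nat.eq_of_mul_eq_mul_right Nat.card_pos h
    rw [hidx2] at hdv
    have := Nat.coprime_two_right.mp (Lib.Hall.coprime_card_pPrimeCore (G := X ⧸ R) 2)
    exact this.not_two_dvd_nat hdv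
  -- Sylow 2-subgroup of `Y ⊓ M`
  have hCp : IsPGroup 2 (R ⊓ M : Subgroup X) := hRp.to_le inf_le_left
  have hCW : R ⊓ M ≤ Y ⊓ M := inf_le_inf_right _ (hRL.trans hLY)
  obtain ⟨P, hP⟩ := (hCp.of_equiv (subgroupOfEquivOfLe hCW).symm).exists_le_sylow
  set P₀ := (P : Subgroup ↥(Y ⊓ M)).map (Y ⊓ M).subtype with hP₀
  have hP₀W : P₀ ≤ Y ⊓ M := map_subtype_le _
  have hP₀p : IsPGroup 2 P₀ := P.2.map _
  have hCP₀ : R ⊓ M ≤ P₀ := fun c hc => ⟨⟨c, hCW hc⟩, hP (mem_subgroupOf.mpr hc), rfl⟩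
  have hKW : K ≤ Y ⊓ M := le_inf (hKL.trans hLY) le_normalizer
  have hKM : K ≤ M := le_normalizer
  have hLM : L ⊓ M ≤ K ⊔ P₀ := by
    rintro l ⟨hl, hlM⟩
    have hl' : l ∈ ((K ⊔ R : Subgroup X) : Set X) := by rw [hKsup]; exact hl
    rw [coe_mul_of_left_le_normalizer_right _ _ hKn] at hl'
    obtain ⟨k, hk, r, hr, rfl⟩ := hl' 
    have hrM : r ∈ M := by
      have := mul_mem (inv_mem (hKM hk)) hlM
      simpa using this
    exact mul_mem_sup hk (hCP₀ ⟨hr, hrM⟩)
  have hsupW : K ⊔ P₀ = Y ⊓ M := by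
    refine le_antisymm (sup_le hKW hP₀W) ?_
    rw [← subgroupOf_eq_top, ← index_eq_one, Nat.eq_one_iff_not_exists_prime_dvd]
    intro p hp hdvd
    haveI : Fact p.Prime := ⟨hp⟩
    by_cases hp2 : p = 2
    · subst hp2
      refine P.not_dvd_index (hdvd.trans (index_dvd_of_le fun x hx => ?_))
      exact mem_subgroupOf.mpr (mem_sup_right (mem_map_of_mem _ hx))
    · obtain ⟨T⟩ := (inferInstance : Nonempty (Sylow p ↥(Y ⊓ M)))
      refine T.not_dvd_index (hdvd.trans (index_dvd_of_le fun x hx => mem_subgroupOf.mpr (hLM ⟨?_, x.2.2⟩)))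
      have hyL : QuotientGroup.mk' L (x : X) ∈ Cfsg.pCore 2 (X ⧸ L) := x.2.1
      obtain ⟨a, ha⟩ := Lib.Hall.isPGroup_pCore (G := X ⧸ L) 2 ⟨_, hyL⟩
      obtain ⟨b, hb⟩ := T.2 ⟨x, hx⟩
      have h1 : orderOf (QuotientGroup.mk' L (x : X)) ∣ 2 ^ a :=
        orderOf_dvd_of_pow_eq_one (congrArg Subtype.val ha)
      have h2 : orderOf (QuotientGroup.mk' L (x : X)) ∣ p ^ b := by
        refine (orderOf_map_dvd _ _).trans (orderOf_dvd_of_pow_eq_one ?_)
        have := congrArg (fun z : T => ((z : ↥(Y ⊓ M)) : X)) hb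
        simpa using this
      have h3 := Nat.eq_one_of_dvd_coprimes
        (Nat.Coprime.pow a b ((Nat.coprime_primes Nat.prime_two hp).mpr (Ne.symm hp2))) h1 h2
      rw [orderOf_eq_one_iff] at h3
      exact (QuotientGroup.eq_one_iff _).mp h3
  have hP₀ne : P₀ ≠ R ⊓ M := by
    intro h
    refine hYne fun y hy => ?_
    obtain ⟨r, hr, m, hm, rfl⟩ := hF y
    have hmY : m ∈ Y ⊓ M := ⟨by
      have := mul_mem (inv_mem (hLY (hRL hr))) hy
      simpa using this, hm⟩
    rw [← hsupW, h] at hmY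
    exact mul_mem (hRL hr) (sup_le hKL (inf_le_left.trans hRL) hmY)
  refine false_of_config R K hRp hKodd (fun S hS hSp => ?_) (fun k hk hkc => ?_) hF hinvR htrans hthree
    P₀ hP₀p (hP₀W.trans inf_le_right) hCP₀ hP₀ne ?_
  · haveI := hS
    exact Lib.Hall.le_pCore hSp
  · have h1 : k ∈ K ⊓ R := ⟨hk, hCR hkc⟩
    rwa [hinf, mem_bot] at h1
  · rw [hsupW]
    refine le_trans ?_ inf_normalizer_le_normalizer_inf
    exact le_inf (fun _ _ => by rw [normalizer_eq_top (H := Y)]; exact mem_top _) le_normalizer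

end Cfsg.Agent.Lib.LocalChar.InvolOneClass
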