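import Cfsg.Agent.Lib.LocalChar.InvolOneClass.Main
import Cfsg.Agent.Lib.PLength.Basic
import Cfsg.Agent.Lib.OddLocal.PLengthOne
import Mathlib

/-!
Sylow 2-subgroups of solvable groups with one class of involutions.
-/

set_option autoImplicit false
set_option linter.style.haveILetI false

namespace Cfsg.Agent.Lib.LocalChar.InvolOneClass

open Subgroup
open scoped commutatorElement

/-- A finite abelian 2-group whose automorphisms are transitive on the involutions is homocyclic. -/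
theorem exists_homocyclic {S : Type*} [CommGroup S] [Finite S] (hS : IsPGroup 2 S)
    (h : ∀ x y : S, x ≠ 1 → x ^ 2 = 1 → y ≠ 1 → y ^ 2 = 1 → ∃ a : MulAut S, a x = y) :
    ∃ m r : ℕ, Nonempty (S ≃* (Fin r → Multiplicative (ZMod (2 ^ m)))) := by
  classical
  haveI : Fact (Nat.Prime 2) := ⟨Nat.prime_two⟩
  obtain ⟨ι, hι, n, hn, ⟨e⟩⟩ := CommGroup.equiv_prod_multiplicative_zmod_of_finite S
  obtain ⟨k, hk⟩ := IsPGroup.iff_card.mp hS
  have hdvd : ∀ i, n i ∣ 2 ^ k := by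
    intro i
    rw [← hk, Nat.card_congr e.toEquiv, Nat.card_pi]
    refine Dvd.dvd.trans ?_ (Finset.dvd_prod_of_mem _ (Finset.mem_univ i))
    rw [Nat.card_congr Multiplicative.toAdd, Nat.card_zmod]
  have hpow : ∀ i, ∃ d, n i = 2 ^ (d + 1) := by
    intro i
    obtain ⟨d, -, hd⟩ := (Nat.dvd_prime_pow Nat.prime_two).mp (hdvd i)
    rcases d with _ | d
    · have := hn i
      rw [hd, pow_zero] at this
      exact absurd this (lt_irrefl 1)
    · exact ⟨d, hd⟩
  choose d hd using hpow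
  let c : ∀ i, ((j : ι) → Multiplicative (ZMod (n j))) := fun i => Pi.mulSingle i (Multiplicative.ofAdd 1)
  have hc : ∀ i, orderOf (c i) = n i := by
    intro i
    show orderOf (MonoidHom.mulSingle (fun j => Multiplicative (ZMod (n j))) i (Multiplicative.ofAdd 1)) = _
    rw [orderOf_injective _ (Pi.mulSingle_injective (M := fun j => Multiplicative (ZMod (n j))) i),
      orderOf_ofAdd_eq_addOrderOf, ZMod.addOrderOf_one]
  have hle : ∀ i j, d j ≤ d i := by
    intro i j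
    by_contra hlt
    push Not at hlt
    have hinv : ∀ i, c i ^ 2 ^ d i ≠ 1 ∧ (c i ^ 2 ^ d i) ^ 2 = 1 := by
      intro i
      refine ⟨fun h1 => ?_, by rw [← pow_mul, ← pow_succ, ← hd i, ← hc i, pow_orderOf_eq_one]⟩
      have h2 := orderOf_dvd_of_pow_eq_one h1
      rw [hc, hd, Nat.pow_dvd_pow_iff_le_right (by norm_num)] at h2
      omega
    obtain ⟨a, ha⟩ := h (e.symm (c j ^ 2 ^ d j)) (e.symm (c i ^ 2 ^ d i))
      (fun h1 => (hinv j).1 (by simpa using congrArg e h1)) (by rw [← map_pow, (hinv j).2, map_one])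
      (fun h1 => (hinv i).1 (by simpa using congrArg e h1)) (by rw [← map_pow, (hinv i).2, map_one])
    have h3 : c i ^ 2 ^ d i = (e (a (e.symm (c j)))) ^ 2 ^ d j := by
      rw [← map_pow, ← map_pow, ← map_pow, ha, MulEquiv.apply_symm_apply]
    have h4 : (c i ^ 2 ^ d i) i = 1 := by
      rw [h3, Pi.pow_apply]
      refine orderOf_dvd_iff_pow_eq_one.mp ((_root_.orderOf_dvd_natCard _).trans ?_)
      rw [Nat.card_congr Multiplicative.toAdd, Nat.card_zmod, hd i]
      exact Nat.pow_dvd_pow 2 (by omega)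
    refine (hinv i).1 (funext fun l => ?_)
    by_cases hl : l = i
    · subst hl; exact h4
    · show (c i l) ^ 2 ^ d i = 1
      simp only [c, Pi.mulSingle_eq_of_ne hl, one_pow]
  obtain ⟨m, hm⟩ : ∃ m, ∀ i, n i = 2 ^ m := by
    by_cases hne : Nonempty ι
    · obtain ⟨i0⟩ := hne
      exact ⟨d i0 + 1, fun i => by rw [hd i, le_antisymm (hle i0 i) (hle i i0)]⟩
    · exact ⟨0, fun i => absurd ⟨i⟩ hne⟩
  refine ⟨m, Fintype.card ι, ⟨e.trans ?_⟩⟩
  have hpi : ∀ i, Multiplicative (ZMod (n i)) ≃* Multiplicative (ZMod (2 ^ m)) := fun i =>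
    AddEquiv.toMultiplicative (ZMod.ringEquivCongr (hm i)).toAddEquiv
  exact (MulEquiv.piCongrRight hpi).trans
    { toFun := fun f i => f ((Fintype.equivFin ι).symm i)
      invFun := fun f i => f (Fintype.equivFin ι i)
      left_inv := fun f => by funext i; simp
      right_inv := fun f => by funext i; simp
      map_mul' := fun _ _ => rfl }

variable {G : Type*} [Group G] [Finite G]

theorem conclusion (hG : Group.IsSolvable G) (S : Sylow 2 G)
    (htwo : ∃ x y : G, x ∈ (S : Subgroup G) ∧ y ∈ (S : Subgroup G) ∧ x ≠ y ∧ x ≠ 1 ∧ x ^ 2 = 1 ∧ y ≠ 1 ∧ y ^ 2 = 1)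
    (hconj : ∀ x y : G, x ≠ 1 → x ^ 2 = 1 → y ≠ 1 → y ^ 2 = 1 → IsConj x y) :
    Cfsg.PLengthLE 2 1 G ∧ ((∃ m r : ℕ, Nonempty (↥(S : Subgroup G) ≃* (Fin r → Multiplicative (ZMod (2 ^ m))))) ∨
      (¬ IsMulCommutative (S : Subgroup G) ∧ ∃ Y : Subgroup (MulAut ↥(S : Subgroup G)), Group.IsSolvable Y ∧
        ∀ x y : ↥(S : Subgroup G), x ≠ 1 → x ^ 2 = 1 → y ≠ 1 → y ^ 2 = 1 → ∃ a ∈ Y, a x = y)) := by
  classical
  haveI : Fact (Nat.Prime 2) := ⟨Nat.prime_two⟩
  set O := Cfsg.pPrimeCore 2 G with hOdef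
  haveI : O.Normal := Lib.Hall.pPrimeCore_normal 2
  have hO2 : ¬ 2 ∣ Nat.card O := Lib.Hall.not_dvd_card_pPrimeCore Nat.prime_two
  have hSO : ∀ x ∈ (S : Subgroup G), x ∈ O → x = 1 := by
    intro x hxS hxO
    obtain ⟨a, ha⟩ := S.2 ⟨x, hxS⟩
    have h1 : orderOf x ∣ 2 ^ a := orderOf_dvd_of_pow_eq_one (congrArg Subtype.val ha)
    have h2 : orderOf x ∣ Nat.card O := Subgroup.orderOf_dvd_natCard O hxO
    exact orderOf_eq_one_iff.mp (Nat.eq_one_of_dvd_coprimes
      (Nat.Coprime.pow_left a ((Nat.Prime.coprime_iff_not_dvd Nat.prime_two).mpr hO2)) h1 h2)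
  have hsolvX : Group.IsSolvable (G ⧸ O) :=
    haveI := hG; Group.isSolvable_of_surjective (f := QuotientGroup.mk' O) (QuotientGroup.mk'_surjective O)
  have lift : ∀ z : G ⧸ O, z * z = 1 → z ≠ 1 → ∃ u : G, u ≠ 1 ∧ u ^ 2 = 1 ∧ QuotientGroup.mk' O u = z := by
    intro z hz hz1
    set W := (zpowers z).comap (QuotientGroup.mk' O)
    have hoz : orderOf z = 2 := orderOf_eq_prime (by rw [sq, hz]) hz1
    have hW : 2 ∣ Nat.card W := by
      have h := Lib.Coprime.card_map_mk' O W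
      rw [Subgroup.map_comap_eq_self_of_surjective (QuotientGroup.mk'_surjective O), Nat.card_zpowers, hoz] at h
      exact Dvd.intro _ h
    obtain ⟨u, hu⟩ := exists_prime_orderOf_dvd_card' 2 hW
    have hu' : orderOf (u : G) = 2 := by rw [Subgroup.orderOf_coe, hu]
    refine ⟨u, fun h => ?_, by rw [← hu', pow_orderOf_eq_one], ?_⟩
    · rw [h, orderOf_one] at hu'; norm_num at hu'
    · obtain ⟨k, hk⟩ := mem_zpowers_iff.mp (mem_comap.mp u.2)
      rw [← hk]
      rcases Int.even_or_odd k with ⟨l, rfl⟩ | ⟨l, rfl⟩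
      · exfalso
        rw [← two_mul, zpow_mul, zpow_two, hz, one_zpow] at hk
        have h1 : (u : G) ∈ O := (QuotientGroup.eq_one_iff _).mp hk.symm
        exact hO2 (hu' ▸ Subgroup.orderOf_dvd_natCard O h1)
      · rw [zpow_add, zpow_mul, zpow_two, hz, one_zpow, one_mul, zpow_one]
  have hX := two_not_dvd_index_pCore (X := G ⧸ O) hsolvX (Lib.OddLocal.pPrimeCore_quotient_eq_bot 2)
    (fun x y hx hx1 hy hy1 => by
      obtain ⟨u, hu1, hu2, rfl⟩ := lift x hx hx1
      obtain ⟨v, hv1, hv2, rfl⟩ := lift y hy hy1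
      obtain ⟨g, hg⟩ := isConj_iff.mp (hconj u v hu1 hu2 hv1 hv2)
      exact ⟨QuotientGroup.mk' O g, by rw [← map_inv, ← map_mul, ← map_mul, hg]⟩)
    (fun w => by
      obtain ⟨a, b, ha, hb, hab, ha1, ha2, hb1, hb2⟩ := htwo
      have key : ∀ c ∈ (S : Subgroup G), c ≠ 1 → c ^ 2 = 1 →
          QuotientGroup.mk' O c * QuotientGroup.mk' O c = 1 ∧ QuotientGroup.mk' O c ≠ 1 := by
        intro c hc hc1 hc2
        exact ⟨by rw [← map_mul, ← sq, hc2, map_one],
          fun h => hc1 (hSO c hc ((QuotientGroup.eq_one_iff c).mp h))⟩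
      by_cases haw : QuotientGroup.mk' O a = w
      · refine ⟨QuotientGroup.mk' O b, (key b hb hb1 hb2).1, (key b hb hb1 hb2).2, fun hbw => hab ?_⟩
        have h1 : QuotientGroup.mk' O (a⁻¹ * b) = 1 := by rw [map_mul, map_inv, haw, hbw, inv_mul_cancel]
        have h2 := hSO _ (mul_mem (inv_mem ha) hb) ((QuotientGroup.eq_one_iff _).mp h1)
        exact inv_mul_eq_one.mp h2
      · exact ⟨QuotientGroup.mk' O a, (key a ha ha1 ha2).1, (key a ha ha1 ha2).2, haw⟩)
  haveI : (Cfsg.pCore 2 (G ⧸ O)).Normal := Lib.Hall.pCore_normal 2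
  refine ⟨Lib.PLength.pLengthLE_one hX.1, ?_⟩
  have hSR : ∀ t ∈ (S : Subgroup G), QuotientGroup.mk' O t ∈ Cfsg.pCore 2 (G ⧸ O) := by
    intro t ht
    obtain ⟨a, ha⟩ := S.2 ⟨t, ht⟩
    have h1 : orderOf (QuotientGroup.mk' O t) ∣ 2 ^ a :=
      (orderOf_map_dvd _ _).trans (orderOf_dvd_of_pow_eq_one (congrArg Subtype.val ha))
    rw [← QuotientGroup.eq_one_iff]
    refine orderOf_eq_one_iff.mp (Nat.eq_one_of_dvd_coprimes
      (Nat.Coprime.pow_left a ((Nat.Prime.coprime_iff_not_dvd Nat.prime_two).mpr hX.1))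
      ((orderOf_map_dvd (QuotientGroup.mk' _) _).trans h1) ?_)
    rw [index_eq_card]
    exact _root_.orderOf_dvd_natCard _
  have hcent : ∀ x : ↥(S : Subgroup G), x ^ 2 = 1 → (x : G) ∈ centralizer ((S : Subgroup G) : Set G) := by
    intro x hx
    rw [mem_centralizer_iff]
    intro t ht
    have hxX : QuotientGroup.mk' O (x : G) * QuotientGroup.mk' O (x : G) = 1 := by
      rw [← map_mul, ← sq, ← SubmonoidClass.coe_pow, hx, OneMemClass.coe_one, map_one]
    have h1 := (hX.2 _ hxX).2 _ (hSR t ht)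
    have h2 : QuotientGroup.mk' O ⁅t, (x : G)⁆ = 1 := by
      rw [map_commutatorElement, commutatorElement_eq_one_iff_mul_comm]; exact h1
    have h3 := hSO _ (by
      rw [commutatorElement_def]
      exact mul_mem (mul_mem (mul_mem ht x.2) (inv_mem ht)) (inv_mem x.2)) ((QuotientGroup.eq_one_iff _).mp h2)
    exact commutatorElement_eq_one_iff_mul_comm.mp h3
  let ρ : ↥(normalizer ((S : Subgroup G) : Set G)) →* MulAut ↥(S : Subgroup G) :=
    (S : Subgroup G).normalizerMonoidHom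
  have htransY : ∀ x y : ↥(S : Subgroup G), x ≠ 1 → x ^ 2 = 1 → y ≠ 1 → y ^ 2 = 1 →
      ∃ a ∈ ρ.range, a x = y := by
    intro x y hx1 hx hy1 hy
    obtain ⟨g, hg⟩ := isConj_iff.mp (hconj x y (fun h => hx1 (Subtype.ext h))
      (by rw [← SubmonoidClass.coe_pow, hx]; rfl) (fun h => hy1 (Subtype.ext h))
      (by rw [← SubmonoidClass.coe_pow, hy]; rfl))
    obtain ⟨n, hn, hne⟩ := S.conj_eq_normalizer_conj_of_mem_centralizer (x : G) g⁻¹ (hcent x hx)
      (by rw [inv_inv, hg]; exact hcent y hy)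
    rw [inv_inv, hg] at hne
    refine ⟨ρ ⟨n⁻¹, inv_mem hn⟩, ⟨_, rfl⟩, Subtype.ext ?_⟩
    show n⁻¹ * (x : G) * n⁻¹⁻¹ = y
    rw [inv_inv]
    exact hne.symm
  by_cases hab : IsMulCommutative (S : Subgroup G)
  · refine Or.inl ?_
    letI : CommGroup ↥(S : Subgroup G) :=
      { (inferInstance : Group ↥(S : Subgroup G)) with mul_comm := mul_comm' }
    exact exists_homocyclic S.2 fun x y hx1 hx hy1 hy => by
      obtain ⟨a, -, ha⟩ := htransY x y hx1 hx hy1 hy
      exact ⟨a, ha⟩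
  · haveI := hG
    exact Or.inr ⟨hab, ρ.range, Group.isSolvable_of_surjective ρ.rangeRestrict_surjective, htransY⟩

end Cfsg.Agent.Lib.LocalChar.InvolOneClass
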